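import Cfsg.Agent.Sig.A1

/-! Locally complete functors: maximal members, transitivity, two completeness criteria. -/

set_option autoImplicit false
open Cfsg Subgroup Cfsg.Agent.GT Cfsg.Agent.BG
open scoped commutatorElement

namespace Cfsg.Agent.Sig
universe u
variable {G : Type u} [Group G] {π : Set ℕ} {p q r : ℕ} {A B D H K L M N P S T U V W X Y Z : Subgroup G}
  {θ : G → Subgroup G} {a b c : G}

/-- `θ(N(U))` -/
def Nth (p : ℕ) (A : Subgroup G) (θ : G → Subgroup G) (U : Subgroup G) : Subgroup G :=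
  sSup {V | Mem p A θ V ∧ V ≤ N[U]}

theorem le_Nth (hV : Mem p A θ V) (hn : V ≤ N[U]) : V ≤ Nth p A θ U := le_sSup ⟨hV, hn⟩

theorem Nth_le_norm : Nth p A θ U ≤ N[U] := sSup_le fun _ h => h.2

/-- maximal members -/
structure MaxM (p : ℕ) (A : Subgroup G) (θ : G → Subgroup G) (M : Subgroup G) : Prop where
  mem : Mem p A θ M
  max : ∀ V, Mem p A θ V → M ≤ V → V = M

/-- maximal `q`-members -/
structure MaxQ (p : ℕ) (A : Subgroup G) (θ : G → Subgroup G) (q : ℕ) (S : Subgroup G) : Prop where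
  mem : Mem p A θ S
  pg : IsPGroup q S
  max : ∀ V, Mem p A θ V → IsPGroup q V → S ≤ V → V = S

theorem MaxM.eq_of_le (hM : MaxM p A θ M) (hK : MaxM p A θ K) (h : K ≤ M) : K = M :=
  (hK.max M hM.mem h).symm

theorem isPGroup_cj (h : IsPGroup q U) (g : G) : IsPGroup q (cj[g] U) := h.map _

variable [Finite G]

theorem exists_maxM (hU : Mem p A θ U) : ∃ M, MaxM p A θ M ∧ U ≤ M := by
  obtain ⟨K, hK, h1, h2⟩ := exists_maximal_ge (S := {V | Mem p A θ V}) hU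
  exact ⟨K, ⟨hK, h2⟩, h1⟩

theorem exists_maxQ (hU : Mem p A θ U) (hq : IsPGroup q U) : ∃ S, MaxQ p A θ q S ∧ U ≤ S := by
  obtain ⟨K, hK, h1, h2⟩ := exists_maximal_ge (S := {V | Mem p A θ V ∧ IsPGroup q V}) ⟨hU, hq⟩
  exact ⟨K, ⟨hK.1, hK.2, fun V h3 h4 => h2 V ⟨h3, h4⟩⟩, h1⟩

omit [Finite G] in
theorem SF.maxQ_conj (F : SF p A θ) (hS : MaxQ p A θ q S) (hc : c ∈ CB θ A) :
    MaxQ p A θ q (cj[c] S) := by
  refine ⟨F.mem_conj hS.mem hc, isPGroup_cj hS.pg c, fun V hV hq h => ?_⟩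
  rw [← hS.max _ (F.mem_conj hV (inv_mem hc)) (isPGroup_cj hq _) (conj_le_iff.1 h), conj_inv_conj]

namespace CE
variable (E : CE p A θ)
include E

omit [Finite G] in
theorem mem_Nth (hU : Mem p A θ U) (h1 : U ≠ ⊥) : Mem p A θ (Nth p A θ U) := by
  obtain ⟨M, hM, h2, h3⟩ := E.loc U hU h1
  have : Nth p A θ U = M := le_antisymm (sSup_le fun V hV => h3 V hV.1 hV.2) (le_Nth hM h2)
  rwa [this]

omit [Finite G] in
theorem le_max (hM : MaxM p A θ M) (hU : Mem p A θ U) (h1 : U ≠ ⊥) (hn : M ≤ N[U])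
    (hV : Mem p A θ V) (hVU : V ≤ N[U]) : V ≤ M := by
  rw [← hM.max _ (E.mem_Nth hU h1) (le_Nth hM.mem hn)]
  exact le_Nth hV hVU

omit [Finite G] in
theorem le_max' (hM : MaxM p A θ M) (hU : U ≤ M) (hA : A ≤ N[U]) (h1 : U ≠ ⊥) (hn : M ≤ N[U])
    (hV : Mem p A θ V) (hVU : V ≤ N[U]) : V ≤ M :=
  E.le_max hM (hM.mem.of_le hU hA) h1 hn hV hVU

omit [Finite G] in
theorem le_max_core (hM : MaxM p A θ M) (h1 : piCoreOf π M ≠ ⊥) (hV : Mem p A θ V)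
    (hVU : V ≤ N[piCoreOf π M]) : V ≤ M :=
  E.le_max hM (hM.mem.core π) h1 (self_le_norm_piCoreOf _ _) hV hVU

theorem exists_max_norm (hU : Mem p A θ U) (h1 : U ≠ ⊥) :
    ∃ M, MaxM p A θ M ∧ ∀ V, Mem p A θ V → V ≤ N[U] → V ≤ M := by
  obtain ⟨M, hM, h⟩ := exists_maxM (E.mem_Nth hU h1)
  exact ⟨M, hM, fun V hV hn => (le_Nth hV hn).trans h⟩

theorem max_ne_bot (hM : MaxM p A θ M) : M ≠ ⊥ := by
  rintro rfl
  exact E.nc ⟨⊥, hM.mem, fun a ha h1 => (hM.max _ (E.mem ha h1) bot_le).le⟩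

theorem trans_step (hq : q.Prime) {S₁ S₂ X₁ X₂ : Subgroup G} (h₁ : MaxQ p A θ q S₁)
    (h₂ : MaxQ p A θ q S₂) (hH : Mem p A θ H) (x1 : X₁ ≤ S₁ ⊓ H) (x2 : X₂ ≤ S₂ ⊓ H)
    (n1 : A ≤ N[X₁]) (n2 : A ≤ N[X₂])
    (ih : ∀ S S', MaxQ p A θ q S → MaxQ p A θ q S' → (X₁ ≤ S ⊓ S' ∨ X₂ ≤ S ⊓ S') →
      ∃ c ∈ CB θ A, S' = cj[c] S) : ∃ c ∈ CB θ A, S₂ = cj[c] S₁ := by
  obtain ⟨P, hP, nP, h1⟩ := coprime_exists_syl_ge hq (.inl hH.solv) hH.norm (E.copA hH)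
    (x1.trans inf_le_right) (h₁.pg.to_le (x1.trans inf_le_left)) n1
  obtain ⟨c, hc, h2⟩ := coprime_syl_le_conj hq (.inl hH.solv) hH.norm (E.copA hH) hP nP
    (x2.trans inf_le_right) (h₂.pg.to_le (x2.trans inf_le_left)) n2
  have hc' := hH.le_CB le_rfl hc
  obtain ⟨S₃, h₃, h3⟩ := exists_maxQ (hH.of_le hP.le nP) (syl_isPGroup hq hP)
  obtain ⟨c₁, hc₁, e₁⟩ := ih S₁ S₃ h₁ h₃ (.inl (le_inf (x1.trans inf_le_left) (h1.trans h3)))
  obtain ⟨c₂, hc₂, e₂⟩ := ih _ S₂ (E.maxQ_conj h₃ hc') h₂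
    (.inr (le_inf (h2.trans (conj_mono _ h3)) (x2.trans inf_le_left)))
  exact ⟨c₂ * c * c₁, mul_mem (mul_mem hc₂ hc') hc₁, by rw [mul_conj, mul_conj, ← e₁, e₂]⟩

theorem trans_aux (hq : q.Prime) (n : ℕ) : ∀ S₁ S₂ : Subgroup G, MaxQ p A θ q S₁ →
    MaxQ p A θ q S₂ → S₁ ⊓ S₂ ≠ ⊥ → Nat.card G - Nat.card ↥(S₁ ⊓ S₂) = n →
    ∃ c ∈ CB θ A, S₂ = cj[c] S₁ := by
  induction n using Nat.strong_induction_on with
  | _ n ih =>
  intro S₁ S₂ h₁ h₂ hne hn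
  by_cases e : S₁ = S₂
  · exact ⟨1, one_mem _, by rw [one_conj, e]⟩
  have l1 : S₁ ⊓ S₂ < S₁ := lt_of_le_of_ne inf_le_left fun h =>
    e (h₁.max _ h₂.mem h₂.pg (h ▸ inf_le_right)).symm
  have l2 : S₁ ⊓ S₂ < S₂ := lt_of_le_of_ne inf_le_right fun h =>
    e (h₂.max _ h₁.mem h₁.pg (h ▸ inf_le_left))
  have hD : Mem p A θ (S₁ ⊓ S₂) := h₁.mem.inf_left h₂.mem.norm
  have m1 := h₁.mem.inf_norm hD.norm
  have m2 := h₂.mem.inf_norm hD.norm
  refine E.trans_step hq h₁ h₂ (E.mem_Nth hD hne) (le_inf inf_le_left (le_Nth m1 inf_le_right))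
    (le_inf inf_le_left (le_Nth m2 inf_le_right)) m1.norm m2.norm fun S S' hS hS' h => ?_
  have hlt : S₁ ⊓ S₂ < S ⊓ S' := h.elim (lt_inf_norm_of_isPGroup hq h₁.pg l1).trans_le
    (lt_inf_norm_of_isPGroup hq h₂.pg l2).trans_le
  refine ih _ ?_ S S' hS hS' (ne_bot_of_le hne hlt.le) rfl
  have := card_lt_of_lt hlt
  have := (S ⊓ S').card_le_card_group
  omega

/-- transitivity theorem -/
theorem transit (hq : q.Prime) {S₁ S₂ : Subgroup G} (h₁ : MaxQ p A θ q S₁) (h₂ : MaxQ p A θ q S₂) :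
    ∃ c ∈ CB θ A, S₂ = cj[c] S₁ := by
  by_cases e1 : S₁ = ⊥
  · exact ⟨1, one_mem _, by rw [one_conj]; exact h₁.max _ h₂.mem h₂.pg (e1 ▸ bot_le)⟩
  by_cases e2 : S₂ = ⊥
  · exact ⟨1, one_mem _, by rw [one_conj]; exact (h₂.max _ h₁.mem h₁.pg (e2 ▸ bot_le)).symm⟩
  obtain ⟨B₁, hB₁, c1⟩ := E.exists_line h₁.mem e1
  obtain ⟨B₂, hB₂, c2⟩ := E.exists_line h₂.mem e2
  obtain ⟨b, b1, b2, hb⟩ := E.lines_meet hB₁ hB₂
  have hbA := hB₁.le b1
  refine E.trans_step hq h₁ h₂ (E.mem hbA hb) (le_inf inf_le_left (h₁.mem.cent b hbA hb))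
    (le_inf inf_le_left (h₂.mem.cent b hbA hb)) (le_norm_inf h₁.mem.norm (E.n_cent1 hbA))
    (le_norm_inf h₂.mem.norm (E.n_cent1 hbA)) fun S S' hS hS' h => ?_
  refine E.trans_aux hq _ S S' hS hS' ?_ rfl
  exact h.elim (ne_bot_of_le (ne_bot_of_le c1 (inf_le_inf_left _ (cent_le_cent1 b1))))
    (ne_bot_of_le (ne_bot_of_le c2 (inf_le_inf_left _ (cent_le_cent1 b2))))

theorem exists_S (q : ℕ) : ∃ S, MaxQ p A θ q S := by
  obtain ⟨S, hS, -⟩ := exists_maxQ (q := q) E.mem_bot IsPGroup.of_bot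
  exact ⟨S, hS⟩

theorem syl (hq : q.Prime) (hS : MaxQ p A θ q S) (hH : Mem p A θ H) (hC : CB θ A ≤ H) :
    IsPiHallOf {q} (S ⊓ H) H := by
  obtain ⟨P, hP, nP⟩ := coprime_exists_syl hq (.inl hH.solv) hH.norm (E.copA hH)
  obtain ⟨S', hS', h1⟩ := exists_maxQ (hH.of_le hP.le nP) (syl_isPGroup hq hP)
  obtain ⟨c, hc, e⟩ := E.transit hq hS' hS
  have h2 : S' ⊓ H = P := syl_eq_of_le hq hP (hS'.pg.to_le inf_le_left) inf_le_right
    (le_inf h1 hP.le)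
  have h3 : S ⊓ H = cj[c] P := by rw [e, ← h2, conj_inf, conj_eq_self_of_mem (hC hc)]
  rw [h3]
  exact hP.conj_of_mem (hC hc)

theorem le_S (hq : q.Prime) (hS : MaxQ p A θ q S) (hU : Mem p A θ U) (hUq : IsPGroup q U)
    (hC : CB θ A ≤ N[U]) : U ≤ S := by
  obtain ⟨S', hS', h1⟩ := exists_maxQ hU hUq
  obtain ⟨c, hc, e⟩ := E.transit hq hS' hS
  rw [e, ← conj_eq_self (hC hc)]
  exact conj_mono _ h1

theorem core_le_S (hq : q.Prime) (hS : MaxQ p A θ q S) (hH : Mem p A θ H) (hC : CB θ A ≤ H) :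
    piCoreOf {q} H ≤ S :=
  E.le_S hq hS (hH.core _) (piCoreOf_isPGroup hq _) (hC.trans (self_le_norm_piCoreOf _ _))

omit [Finite G] E in
theorem C_le (ha : a ∈ A) (h1 : a ≠ 1) : CB θ A ≤ θ a := CB_le ha h1

theorem dvd_of_ne_bot (hq : q.Prime) (hU : Mem p A θ U) (hUq : IsPGroup q U) (h1 : U ≠ ⊥) :
    ∃ a ∈ A, a ≠ 1 ∧ q ∣ Nat.card (θ a) := by
  obtain ⟨a, ha, h2, h3⟩ := E.exists_pt hU h1
  exact ⟨a, ha, h2, (prime_dvd_card_of_isPGroup hq (hUq.to_le inf_le_left) h3).trans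
    (card_dvd_of_le (hU.cent a ha h2))⟩

/-- the subgroup `⟨[θ f, Z] : f ∈ B^#⟩` is normalized by `θ(C(B)) ∩ N(Z)` -/
theorem norm_of_gen (hX : ∀ f ∈ B, f ≠ 1 → ⁅θ f, Z⁆ ≤ X)
    (hX' : X ≤ ⨆ (f : G) (_ : f ∈ B) (_ : f ≠ 1), ⁅θ f, Z⁆) : CB θ B ⊓ N[Z] ≤ N[X] := by
  have : X = ⨆ (f : G) (_ : f ∈ B) (_ : f ≠ 1), ⁅θ f, Z⁆ :=
    le_antisymm hX' (iSup_le fun f => iSup_le fun hf => iSup_le fun h1 => hX f hf h1)
  rw [this]
  exact le_norm_iSup fun f => le_norm_iSup fun hf => le_norm_iSup fun h1 =>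
    le_norm_commutator (le_norm_self (inf_le_left.trans (CB_le hf h1))) inf_le_right

omit E in
theorem le_iSup3 {f : G} {S : G → Subgroup G} (hf : f ∈ B) (h1 : f ≠ 1) :
    S f ≤ ⨆ (f : G) (_ : f ∈ B) (_ : f ≠ 1), S f :=
  le_iSup_of_le f (le_iSup_of_le hf (le_iSup_of_le h1 le_rfl))

/-- no element of `A^#` centralizes a non-trivial maximal `q`-member -/
theorem not_le_cent1 (hq : q.Prime) (hS : MaxQ p A θ q S) (h1 : S ≠ ⊥) (ha : a ∈ A) (ha1 : a ≠ 1) :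
    ¬ S ≤ C1[a] := fun hSa => by
  obtain ⟨D, hD, hDq, hall⟩ := E.sub q hq (E.dvd_of_ne_bot hq hS.mem hS.pg h1)
  have zA := SF.zp_le ha
  have k1 : ∀ f ∈ A, f ≠ 1 → ⁅θ f, zpowers a⁆ ≤ ⁅D, zpowers a⁆ := fun f hf f1 => by
    have m := E.mem hf f1
    have h2 : ⁅θ f, zpowers a⁆ ≤ piCoreOf {q}ᶜ (θ f) :=
      coprime_commutator_le_piCoreOf m.solv (zA.trans m.norm) (E.cop_zp m ha)
        (by rw [compl_compl]; exact E.syl hq hS m (C_le hf f1))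
        (by rw [cent_zpowers]; exact inf_le_left.trans hSa)
    rw [← coprime_commutator_commutator (.inl m.solv) (zA.trans m.norm) (E.cop_zp m ha)]
    exact commutator_mono (h2.trans (hall _ (m.core _) (piCoreOf_isPi _ _)
      ((C_le hf f1).trans (self_le_norm_piCoreOf _ _)))) le_rfl
  have mX : Mem p A θ ⁅D, zpowers a⁆ := hD.of_le (commutator_le_of_le_norm_left (zA.trans hD.norm))
    (le_norm_commutator hD.norm (le_norm_of_cent (E.A_le_cent zA)))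
  have k2 : θ a ≤ N[⁅D, zpowers a⁆] := by
    refine E.gen_lines (E.mem ha ha1) fun B hB => le_trans (le_inf ((E.mem ha ha1).le_CB hB.le) ?_)
      (E.norm_of_gen (B := B) (fun f hf f1 => k1 f (hB.le hf) f1) ?_)
    · exact le_norm_of_cent (by rw [cent_zpowers]; exact inf_le_left.trans (E.cent a ha ha1))
    · exact E.comm_gen hD hB.le (E.line_not_cyclic hB) (zA.trans hD.norm)
        (zA.trans (E.A_le_cent hB.le)) (E.cop_zp hD ha) fun b hb b1 =>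
        (commutator_mono (hD.cent b (hB.le hb) b1) le_rfl).trans
          (le_iSup3 (S := fun f => ⁅θ f, zpowers a⁆) hb b1)
  refine E.nc ⟨_, E.mem_sup (E.mem ha ha1) mX k2, fun f hf f1 => ?_⟩
  have m := E.mem hf f1
  rw [← coprime_commutator_sup_cent (.inl m.solv) (zA.trans m.norm) (E.cop_zp m ha), cent_zpowers]
  exact sup_le ((k1 f hf f1).trans le_sup_right) ((m.cent a ha ha1).trans le_sup_left)

/-- a maximal member containing `θ f` for all `f` outside a proper subgroup of `A` -/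
theorem not_outside (hM : MaxM p A θ M) (hL : L < A) (h : ∀ f ∈ A, f ∉ L → θ f ≤ M) : False := by
  refine E.nc (E.complete_of_lines hM.mem fun B hB => ?_)
  by_cases hBL : B ≤ L
  swap
  · obtain ⟨f, hf, hfL⟩ := SetLike.not_le_iff_exists.1 hBL
    exact (CB_le hf (by rintro rfl; exact hfL (one_mem _))).trans (h f (hB.le hf) hfL)
  obtain ⟨b, hb, b1⟩ := exists_ne_one_of_ne_bot (E.line_ne_bot hB)
  obtain ⟨e, he, heL⟩ := SetLike.exists_of_lt hL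
  have hbA := hB.le hb
  have zA := SF.zp_le hbA
  have e1 : e ≠ 1 := by rintro rfl; exact heL (one_mem _)
  have hB'A : zpowers b ⊔ zpowers e ≤ A := sup_le zA (SF.zp_le he)
  have hint : (zpowers b ⊔ zpowers e) ⊓ L = zpowers b := by
    rw [dedekind (.inl (le_norm_of_cent (zA.trans (E.A_le_cent (SF.zp_le he)))))
      (zpowers_le_of_mem (hBL hb))]
    rcases le_or_inf_eq_bot_of_card_prime (by rw [E.card_zp he e1]; exact E.hp) L with h2 | h2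
    · exact absurd (h2 (mem_zpowers e)) heL
    · rw [h2, sup_bot_eq]
  have hnc : ¬ IsCyclic ↥(zpowers b ⊔ zpowers e) := by
    refine E.not_cyclic hB'A ?_
    rw [← E.card_zp hbA b1]
    refine card_lt_of_lt (lt_of_le_of_ne le_sup_left fun h2 => heL ?_)
    exact zpowers_le_of_mem (hBL hb) (h2 ▸ mem_sup_right (mem_zpowers e))
  have k1 : ∀ f ∈ A, f ≠ 1 → ⁅θ f, zpowers b⁆ ≤ ⁅M, zpowers b⁆ := fun f hf f1 => by
    have m := E.mem hf f1
    refine E.comm_gen m hB'A hnc (zA.trans m.norm) (zA.trans (E.A_le_cent hB'A)) (E.cop_zp m hbA)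
      fun g hg g1 => ?_
    by_cases hgL : g ∈ L
    · have hg' : g ∈ zpowers b := hint ▸ (⟨hg, hgL⟩ : g ∈ (zpowers b ⊔ zpowers e) ⊓ L)
      rw [← cent_eq_cent1_of_card_prime (by rw [E.card_zp hbA b1]; exact E.hp) hg' g1,
        le_cent_iff_commutator_eq_bot.1 inf_le_right]
      exact bot_le
    · exact commutator_mono ((m.cent g (hB'A hg) g1).trans (h g (hB'A hg) hgL)) le_rfl
  by_cases h0 : ⁅M, zpowers b⁆ = ⊥
  · have h2 : M ≤ θ b := (le_inf le_rfl (by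
      rw [← cent_zpowers]; exact le_cent_iff_commutator_eq_bot.2 h0)).trans (hM.mem.cent b hbA b1)
    rw [← hM.max _ (E.mem hbA b1) h2]
    exact CB_le hb b1
  · refine E.le_max' hM (commutator_le_of_le_norm_left (zA.trans hM.mem.norm))
      (le_norm_commutator hM.mem.norm (le_norm_of_cent (E.A_le_cent zA))) h0
      (Subgroup.normalizer_commutator_ge_left _ _) (E.mem_CB hB.le (E.line_ne_bot hB)) ?_
    refine le_trans (le_inf le_rfl ?_)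
      (E.norm_of_gen (B := B) (fun f hf f1 => k1 f (hB.le hf) f1) ?_)
    · exact le_norm_of_cent ((E.CB_le_cent hB.le).trans (cent_anti (zpowers_le_of_mem hb)))
    · exact E.comm_gen hM.mem hB.le (E.line_not_cyclic hB) (zA.trans hM.mem.norm)
        (zA.trans (E.A_le_cent hB.le)) (E.cop_zp hM.mem hbA) fun g hg g1 =>
        (commutator_mono (hM.mem.cent g (hB.le hg) g1) le_rfl).trans
          (le_iSup3 (S := fun f => ⁅θ f, zpowers b⁆) hg g1)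

end CE
end Cfsg.Agent.Sig
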