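import Cfsg.Agent.Sig.Vx

/-! Pushing up in an amalgam of two solvable groups with operators. -/

set_option autoImplicit false
open Cfsg Subgroup Cfsg.Agent.GT Cfsg.Agent.BG
open scoped commutatorElement

namespace Cfsg.Agent.Sig
universe u
variable {G : Type u} [Group G] {p q n : ℕ} {i j : Bool} {g h k : G}

/-- walks in the coset graph -/
def Wk (L : Bool → Subgroup G) : ℕ → Bool → G → Bool → G → Prop
  | 0, i, g, j, h => i = j ∧ g⁻¹ * h ∈ L i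
  | n + 1, i, g, j, h => ∃ k, g⁻¹ * k ∈ L i ∧ Wk L n (!i) k j h

namespace Wk
variable {L : Bool → Subgroup G}

theorem tr {X : Subgroup G} (h1 : g⁻¹ * k ∈ X) (h2 : k⁻¹ * h ∈ X) : g⁻¹ * h ∈ X := by
  simpa using mul_mem h1 h2

theorem sy {X : Subgroup G} (h1 : g⁻¹ * k ∈ X) : k⁻¹ * g ∈ X := by
  simpa using inv_mem h1

theorem left (h1 : g⁻¹ * k ∈ L i) (w : Wk L n i k j h) : Wk L n i g j h := by
  cases n with
  | zero => exact ⟨w.1, tr h1 w.2⟩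
  | succ n =>
    obtain ⟨m, h2, w⟩ := w
    exact ⟨m, tr h1 h2, w⟩

theorem right (w : Wk L n i g j h) (h1 : h⁻¹ * k ∈ L j) : Wk L n i g j k := by
  induction n generalizing i g with
  | zero => exact ⟨w.1, tr w.2 (w.1 ▸ h1)⟩
  | succ n ih =>
    obtain ⟨m, h2, w⟩ := w
    exact ⟨m, h2, ih w⟩

theorem snoc (w : Wk L n i g j h) : Wk L (n + 1) i g (!j) h := by
  induction n generalizing i g with
  | zero => exact ⟨h, w.2, by rw [w.1], by simp⟩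
  | succ n ih =>
    obtain ⟨m, h2, w⟩ := w
    exact ⟨m, h2, ih w⟩

theorem symm (w : Wk L n i g j h) : Wk L n j h i g := by
  induction n generalizing i g with
  | zero => exact ⟨w.1.symm, w.1 ▸ sy w.2⟩
  | succ n ih =>
    obtain ⟨m, h2, w⟩ := w
    have := (ih w).snoc
    rw [Bool.not_not] at this
    exact this.right (sy h2)

theorem mul (a : G) (w : Wk L n i g j h) : Wk L n i (a * g) j (a * h) := by
  induction n generalizing i g with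
  | zero => exact ⟨w.1, by simpa [mul_assoc] using w.2⟩
  | succ n ih =>
    obtain ⟨m, h2, w⟩ := w
    exact ⟨a * m, by simpa [mul_assoc] using h2, ih w⟩

theorem conj {a : G} (ha : ∀ i, a ∈ N[L i]) (w : Wk L n i g j h) :
    Wk L n i (a * g * a⁻¹) j (a * h * a⁻¹) := by
  have e : ∀ i g h, g⁻¹ * h ∈ L i → (a * g * a⁻¹)⁻¹ * (a * h * a⁻¹) ∈ L i := fun i g h hm => by
    simpa [mul_assoc] using conj_mem_of_mem_norm (ha i) hm
  induction n generalizing i g with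
  | zero => exact ⟨w.1, e _ _ _ w.2⟩
  | succ n ih =>
    obtain ⟨m, h2, w⟩ := w
    exact ⟨a * m * a⁻¹, e _ _ _ h2, ih w⟩

end Wk

theorem conj_eq_of_mem {L X : Subgroup G} (hX : L ≤ N[X]) (h1 : g⁻¹ * k ∈ L) :
    cj[k] X = cj[g] X := by
  conv_rhs => rw [← conj_eq_self (hX h1), ← mul_conj, mul_inv_cancel_left]

variable [Finite G] {B P Ω : Subgroup G}

theorem walk_le {L Q R Y : Bool → Subgroup G}
    (S : ∀ i, Ed p q B P (L i) (Q i) (R i) (Y i) (L (!i)) (Q (!i)) (R (!i)) (Y (!i))) (n : ℕ) :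
    ∀ i g j h, Wk L n i g j h → cj[g] (Y i) ≤ cj[h] (Q j) := by
  induction n using Nat.strong_induction_on with
  | _ n ih =>
  intro i g j h w
  obtain _ | _ | n := n
  · obtain ⟨rfl, w⟩ := w
    rw [conj_eq_of_mem (S i).v.nQ w]
    exact conj_mono g (S i).v.YQ
  · obtain ⟨k, h1, rfl, h2⟩ := w
    rw [conj_eq_of_mem (S (!i)).v.nQ h2, ← conj_eq_of_mem (S i).v.LY h1]
    simpa using conj_mono k (S (!i)).adj
  obtain ⟨k₀, h0, w1⟩ := w
  obtain ⟨m, hm, w2⟩ := w1.symm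
  obtain ⟨k₁, h1, w3⟩ := w1
  have T := (S (!i)).conj k₁
  rw [Bool.not_not] at w3 T
  have := ((S j).conj m).far T (ncl_le fun x hx => ?_) (fun l hl => ?_) (l₀ := k₀ * k₁⁻¹)
    (by simpa [mem_conj, mul_assoc] using Wk.sy h1)
  · rwa [← mul_conj, inv_mul_cancel_right, conj_eq_of_mem (S i).v.LY h0,
      conj_eq_of_mem (S j).v.nQ hm] at this
  · rw [← mul_conj]
    refine ih (n + 1) (by omega) _ _ _ _ ⟨x * m, by simp, ?_⟩
    rw [Bool.not_not]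
    refine w3.symm.left (Wk.sy (Wk.tr hm ?_))
    simpa [mul_assoc] using (S j).v.RL (mem_conj.1 hx)
  · rw [← mul_conj]
    refine ih (n + 1) (by omega) _ _ _ _ ⟨l * k₁, by simp, w2.symm.left (Wk.sy (Wk.tr h1 ?_))⟩
    simpa [mul_assoc] using mem_conj.1 hl

theorem exists_normal_of_ed {L Q R Y : Bool → Subgroup G}
    (S : ∀ i, Ed p q B P (L i) (Q i) (R i) (Y i) (L (!i)) (Q (!i)) (R (!i)) (Y (!i)))
    (h1 : Y true ≠ ⊥) (nL : ∀ i, Ω ≤ N[L i]) (nY : ∀ i, Ω ≤ N[Y i]) :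
    ∃ W : Subgroup G, W ≠ ⊥ ∧ W ≤ P ∧ L true ≤ N[W] ∧ L false ≤ N[W] ∧ Ω ≤ N[W] := by
  refine ⟨sSup {X | ∃ n i g, Wk L n i g true 1 ∧ X = cj[g] (Y i)}, ne_bot_of_le h1
    (le_sSup ⟨0, true, 1, ⟨rfl, by simp⟩, (one_conj _).symm⟩), sSup_le ?_,
    le_norm_sSup_of_conj_mem ?_, le_norm_sSup_of_conj_mem ?_, le_norm_sSup_of_conj_mem ?_⟩
  · rintro _ ⟨n, i, g, w, rfl⟩
    exact (walk_le S n _ _ _ _ w).trans ((one_conj _).le.trans (S true).v.QP)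
  · rintro a ha _ ⟨n, i, g, w, rfl⟩
    exact ⟨n, i, a * g, (w.mul a).right (by simpa using ha), (mul_conj _ _ _).symm⟩
  · rintro a ha _ ⟨n, i, g, w, rfl⟩
    exact ⟨n + 2, i, a * g, ((w.snoc.mul a).right (k := 1) (by simpa using ha)).snoc,
      (mul_conj _ _ _).symm⟩
  · rintro a ha _ ⟨n, i, g, w, rfl⟩
    refine ⟨n, i, a * g * a⁻¹, by simpa using w.conj fun i => nL i ha, ?_⟩
    rw [mul_conj, mul_conj, conj_eq_self (inv_mem (nY i ha))]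

theorem Side.puig {L Q R : Subgroup G} (S : Side p q B P L Q R) (hq : q.Prime) (h5 : 5 ≤ q)
    (hP : IsPGroup q P) : L ≤ N[zPuigOf P] := by
  rcases S.gen with e | e
  · refine sol5_Puig_center_normal hq h5 S.solv (syl_mk hq S.PL hP fun hd => S.idx ?_) ?_
    · have h1 := card_sup_mul_card_inf' (S.PL.trans S.nR)
      rw [← e, ← card_mul_relIndex S.PL, ← card_inf_mul_relIndex P R, inf_comm P, mul_right_comm,
        mul_right_comm, mul_comm (Nat.card P), mul_comm (Nat.card ↥(R ⊓ P))] at h1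
      have h2 : P.relIndex L = P.relIndex R := by
        have a := card_pos' P
        have b := card_pos' (R ⊓ P)
        have : Nat.card P * Nat.card ↥(R ⊓ P) * P.relIndex L =
            Nat.card P * Nat.card ↥(R ⊓ P) * P.relIndex R := by linarith
        exact Nat.eq_of_mul_eq_mul_left (Nat.mul_pos a b) this
      exact (h2 ▸ hd).trans (relIndex_dvd_of_le_left _ S.QP)
    · have hQ := isPi_of_isPGroup hq (hP.to_le S.QP)
      have hc := (piCoreOf_isPi {q}ᶜ L).coprime' hQ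
      exact eq_bot_of_le_of_coprime le_rfl ((le_inf (piCoreOf_le _ _) (le_cent_of_norm_of_coprime
        ((piCoreOf_le _ _).trans S.nQ) ((S.QP.trans S.PL).trans (self_le_norm_piCoreOf _ _))
        hc)).trans S.chr) hc
  · rw [← le_antisymm S.QP e]
    exact S.nQ.trans (norm_le_norm_zPuigOf _)

theorem Side.vx {L Q R : Subgroup G} (S : Side p q B P L Q R) (hp : p.Prime) (hp2 : p ≠ 2)
    (hq : q = 2 ∨ q = 3) (hpq : p ≠ q) (hB : IsPGroup p B) (hP : IsPGroup q P) (nP : B ≤ N[P])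
    (nL : B ≤ N[L]) (nQ : B ≤ N[Q]) (nR : B ≤ N[R]) :
    Vx p q B P L Q R (ncl L (omegaOne q (P ⊓ C[P]))) := by
  have z1 : omegaOne q (P ⊓ C[P]) ≤ P ⊓ C[P] := omegaOne_le' _ _
  have nZ : ∀ {X : Subgroup G}, X ≤ N[P] → X ≤ N[omegaOne q (P ⊓ C[P])] := fun h =>
    (le_norm_inf h (le_norm_cent h)).trans (norm_le_norm_omegaOne _ _)
  have y1 : ncl L (omegaOne q (P ⊓ C[P])) ≤ Q ⊓ C[Q] := ncl_le fun x hx => by
    rw [← conj_eq_self (le_norm_inf S.nQ (le_norm_cent S.nQ) hx)]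
    have := z1.trans (inf_le_inf S.PL (cent_anti S.QP))
    exact conj_mono x (le_inf (this.trans S.chr) (this.trans inf_le_right))
  have eZ : IsElementaryAbelian q (omegaOne q (P ⊓ C[P])) :=
    ⟨isMulCommutative_of_le (isMulCommutative_inf_cent P) z1, fun _ hx =>
      pow_eq_one_of_mem_omegaOne_of_comm (isMulCommutative_inf_cent P) hx⟩
  refine ⟨S, hp, hp2, hq, hpq, hB, hP, nP, nQ, nR, le_norm_ncl nL (nZ nP),
    elemAb_of_le_closure (isMulCommutative_of_le (isMulCommutative_inf_cent Q) y1)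
      (ncl_le fun x hx z hz => subset_closure ⟨le_ncl hx hz, (isElementaryAbelian_map eZ _).2 z hz⟩),
    y1.trans inf_le_left, le_cent_symm (y1.trans inf_le_right), self_le_norm_ncl, fun x hx h => ?_⟩
  rcases S.gen with e | e
  swap
  · exact le_cent_symm (y1.trans inf_le_right) (e hx)
  refine le_cent_symm (ncl_le fun l hl => le_cent_symm (zpowers_le_of_mem ?_)) (mem_zpowers x)
  obtain ⟨r, hr, u, hu, rfl⟩ := (mem_sup_of_le_norm' (S.PL.trans S.nR)).1 (e ▸ hl)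
  rw [mul_conj, conj_eq_self (nZ (le_norm_self le_rfl) hu), ← conj_centralizer, mem_conj]
  simpa [commutatorElement_def] using mul_mem (cent_anti self_le_ncl
    (h (commutator_mem_commutator (inv_mem hr) (mem_zpowers x))))
    (le_cent_symm (z1.trans inf_le_right) hx)

theorem push (hp : p.Prime) (hp2 : p ≠ 2) (hq : q.Prime)
    {B Ω P L₁ Q₁ R₁ L₂ Q₂ R₂ : Subgroup G} (hB : IsPGroup p B) (hBΩ : B ≤ Ω)
    (hP : IsPGroup q P) (hP1 : P ≠ ⊥)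
    (h₁ : Side p q B P L₁ Q₁ R₁) (h₂ : Side p q B P L₂ Q₂ R₂)
    (nP : Ω ≤ N[P]) (nL₁ : Ω ≤ N[L₁]) (nL₂ : Ω ≤ N[L₂]) (nQ₁ : Ω ≤ N[Q₁]) (nQ₂ : Ω ≤ N[Q₂])
    (nR₁ : Ω ≤ N[R₁]) (nR₂ : Ω ≤ N[R₂])
    (H₁ : ∀ W : Subgroup G, W ≠ ⊥ → W ≤ P → L₂ ≤ N[W] → Ω ≤ N[W] → R₁ ⊓ N[W] ≤ N[Q₂])
    (H₂ : ∀ W : Subgroup G, W ≠ ⊥ → W ≤ P → L₁ ≤ N[W] → Ω ≤ N[W] → R₂ ⊓ N[W] ≤ N[Q₁]) :
    ∃ W : Subgroup G, W ≠ ⊥ ∧ W ≤ P ∧ L₁ ≤ N[W] ∧ L₂ ≤ N[W] ∧ Ω ≤ N[W] := by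
  by_cases h5 : 5 ≤ q
  · exact ⟨zPuigOf P, zPuigOf_ne_bot hq hP hP1, zPuigOf_le P, h₁.puig hq h5 hP, h₂.puig hq h5 hP,
      nP.trans (norm_le_norm_zPuigOf _)⟩
  have h23 : q = 2 ∨ q = 3 := by
    have := hq.two_le
    have h4 : q ≠ 4 := by rintro rfl; exact absurd hq (by norm_num)
    omega
  have := Fact.mk hq
  have hpq : p ≠ q := fun e =>
    h₁.cop (e ▸ (PG.dvd_card_of_ne_bot hP hP1).trans (card_dvd_of_le h₁.PL))
  have v₁ := h₁.vx hp hp2 h23 hpq hB hP (hBΩ.trans nP) (hBΩ.trans nL₁) (hBΩ.trans nQ₁)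
    (hBΩ.trans nR₁)
  have v₂ := h₂.vx hp hp2 h23 hpq hB hP (hBΩ.trans nP) (hBΩ.trans nL₂) (hBΩ.trans nQ₂)
    (hBΩ.trans nR₂)
  have nZ : Ω ≤ N[omegaOne q (P ⊓ C[P])] :=
    (le_norm_inf nP (le_norm_cent nP)).trans (norm_le_norm_omegaOne _ _)
  have z : omegaOne q (P ⊓ C[P]) ≠ ⊥ := omegaOne_ne_bot_of_prime_dvd hq
    (PG.dvd_card_of_ne_bot (hP.to_le inf_le_left) (PG.center_ne_bot hP hP1))
  refine exists_normal_of_ed (p := p) (q := q) (B := B) (L := fun i => cond i L₁ L₂)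
    (Q := fun i => cond i Q₁ Q₂) (R := fun i => cond i R₁ R₂)
    (Y := fun i => ncl (cond i L₁ L₂) (omegaOne q (P ⊓ C[P]))) ?_ (ne_bot_of_le z self_le_ncl) ?_ ?_
  · rintro (_ | _)
    · exact ⟨v₂, v₁, H₂ _ (ne_bot_of_le z self_le_ncl) (v₁.YQ.trans h₁.QP) v₁.LY
        (le_norm_ncl nL₁ nZ)⟩
    · exact ⟨v₁, v₂, H₁ _ (ne_bot_of_le z self_le_ncl) (v₂.YQ.trans h₂.QP) v₂.LY
        (le_norm_ncl nL₂ nZ)⟩
  · rintro (_ | _)
    exacts [nL₂, nL₁]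
  · rintro (_ | _)
    exacts [le_norm_ncl nL₂ nZ, le_norm_ncl nL₁ nZ]

end Cfsg.Agent.Sig
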