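import Cfsg.Agent.Sig.A2
import Cfsg.Agent.Sig.Push

/-! Uniqueness of the maximal member containing `θ(C(B))` in characteristic `q`. -/

set_option autoImplicit false
open Cfsg Subgroup Cfsg.Agent.GT Cfsg.Agent.BG
open scoped commutatorElement

namespace Cfsg.Agent.Sig
universe u
variable {G : Type u} [Group G] {π : Set ℕ} {p q r : ℕ} {A B D H K L M N P S T U V W X Y Z : Subgroup G}
  {θ : G → Subgroup G} {a b c : G}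

/-- the largest `θ(C(B))`-invariant `q`-member -/
def qB (p : ℕ) (A : Subgroup G) (θ : G → Subgroup G) (q : ℕ) (B : Subgroup G) : Subgroup G :=
  sSup {U | Mem p A θ U ∧ IsPGroup q U ∧ CB θ B ≤ N[U]}

theorem le_qB (h1 : Mem p A θ U) (h2 : IsPGroup q U) (h3 : CB θ B ≤ N[U]) : U ≤ qB p A θ q B :=
  le_sSup ⟨h1, h2, h3⟩

variable [Finite G]

theorem core_le_qB (hq : q.Prime) (hH : Mem p A θ H) (hC : CB θ B ≤ H) :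
    piCoreOf {q} H ≤ qB p A θ q B :=
  le_qB (hH.core _) (piCoreOf_isPGroup hq _) (hC.trans (self_le_norm_piCoreOf _ _))

theorem CE.qB_spec (E : CE p A θ) (hq : q.Prime) (hB : B ≤ A) :
    Mem p A θ (qB p A θ q B) ∧ IsPGroup q (qB p A θ q B) ∧ CB θ B ≤ N[qB p A θ q B] := by
  obtain ⟨S, hS⟩ := E.exists_S q
  refine sSup_mem_of_sup_closed (S := {U | Mem p A θ U ∧ IsPGroup q U ∧ CB θ B ≤ N[U]}) (X := ⊥)
    ⟨E.mem_bot, IsPGroup.of_bot, by rw [norm_bot]; exact le_top⟩ fun U hU V hV => ?_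
  have h : U ⊔ V ≤ S := sup_le (E.le_S hq hS hU.1 hU.2.1 ((CB_anti hB).trans hU.2.2))
    (E.le_S hq hS hV.1 hV.2.1 ((CB_anti hB).trans hV.2.2))
  exact ⟨hS.mem.of_le h (le_norm_sup hU.1.norm hV.1.norm), hS.pg.to_le h,
    le_norm_sup hU.2.2 hV.2.2⟩

theorem le_core_of_comm_q (hq : q.Prime) (hs : Group.IsSolvable H) (hX : X ≤ H) (hXq : IsPGroup q X)
    (hK : IsPGroup q K) (h : ⁅piCore2Of {q} {q}ᶜ H, X⁆ ≤ K) : X ≤ piCoreOf {q} H :=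
  le_core_of_comm hs hX (isPi_of_isPGroup hq hXq) (le_core_of_le_core2
    (commutator_le_of_le_norm_left (hX.trans (self_le_norm_piCore2Of _ _ _)))
    ((isPi_of_isPGroup hq hK).of_le h))

/-- the hypothesis of the characteristic `q` uniqueness theorem -/
structure CQ (p : ℕ) (A : Subgroup G) (θ : G → Subgroup G) (q : ℕ) (B : Subgroup G) : Prop
    extends CE p A θ where
  hq : q.Prime
  hB : PnElem p 2 A B
  chr : ∀ K, MaxM p A θ K → CB θ B ≤ K → piCoreOf {q}ᶜ K = ⊥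

namespace CQ
variable (E : CQ p A θ q B)
include E

local notation "Ω" => A ⊔ CB θ B
local notation:max "𝐐" H:max => piCoreOf (Singleton.singleton q : Set ℕ) H
local notation:max "𝐑" H:max =>
  piCore2Of (Singleton.singleton q : Set ℕ) (Singleton.singleton q : Set ℕ)ᶜ H
local notation "𝐏" => qB p A θ q B

omit [Finite G] in
theorem memB : Mem p A θ (CB θ B) := E.mem_CB E.hB.le (E.line_ne_bot E.hB)

omit [Finite G] E in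
theorem nH (hH : Mem p A θ H) (hC : CB θ B ≤ H) : Ω ≤ N[H] := sup_le hH.norm (le_norm_self hC)

theorem nP : Ω ≤ N[𝐏] := sup_le (E.qB_spec E.hq E.hB.le).1.norm (E.qB_spec E.hq E.hB.le).2.2

theorem pgP : IsPGroup q 𝐏 := (E.qB_spec E.hq E.hB.le).2.1

theorem Q_ne_bot (hH : MaxM p A θ H) (hC : CB θ B ≤ H) : 𝐐 H ≠ ⊥ :=
  piCoreOf_ne_bot_of_compl_eq_bot hH.mem.solv (E.max_ne_bot hH) (E.chr H hH hC)

theorem side1 (hH : MaxM p A θ H) (hC : CB θ B ≤ H) (hP : IsPGroup q P) (h1 : 𝐐 H ≤ P) (h2 : P ≤ H)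
    (h3 : Ω ≤ N[P]) : Side p q B P (𝐑 H ⊔ P) (𝐐 H) (𝐑 H) := by
  have hL : 𝐑 H ⊔ P ≤ H := sup_le (piCore2Of_le _ _ _) h2
  refine ⟨h1, le_sup_right, piCoreOf_le_piCore2Of_left, le_sup_left,
    hL.trans (self_le_norm_piCoreOf _ _), hL.trans (self_le_norm_piCore2Of _ _ _),
    solv_of_le hH.mem.solv hL, fun hd => hH.mem.cop (hd.trans (card_dvd_of_le hL)),
    fun hd => piCore2Of_relIndex q E.hq hd rfl,
    (inf_le_inf_right _ hL).trans (inf_cent_piCoreOf_le hH.mem.solv (E.chr H hH hC)),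
    fun x hx h => ?_, ?_, .inl rfl⟩
  · exact le_core_of_comm hH.mem.solv ((zpowers_le_of_mem hx).trans h2)
      ((isPi_of_isPGroup E.hq hP).of_le (zpowers_le_of_mem hx)) h (mem_zpowers x)
  · exact ((inf_le_inf_right _ (piCore2Of_le _ _ _)).trans (hH.mem.le_CB E.hB.le)).trans
      (le_sup_right.trans h3)

omit [Finite G] in
theorem side0 (hL : Mem p A θ L) (h1 : P ≤ L) (h2 : L ≤ N[P]) (h3 : L ⊓ C[P] ≤ P) :
    Side p q B P L P P :=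
  ⟨le_rfl, h1, le_rfl, h1, h2, h2, hL.solv, hL.cop, by simpa using E.hq.ne_one, h3,
    fun _ hx _ => hx, inf_le_left.trans (le_norm_self le_rfl), .inr le_rfl⟩

theorem exists_over (hW : Mem p A θ W) (h1 : W ≠ ⊥) (hn : Ω ≤ N[W]) :
    ∃ M, MaxM p A θ M ∧ CB θ B ≤ M ∧ ∀ V, Mem p A θ V → V ≤ N[W] → V ≤ M := by
  obtain ⟨M, hM, h⟩ := E.exists_max_norm hW h1
  exact ⟨M, hM, h _ E.memB (le_sup_right.trans hn), h⟩

omit E [Finite G] in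
theorem memR (hH : Mem p A θ H) : Mem p A θ (𝐑 H) :=
  hH.of_le (piCore2Of_le _ _ _) (le_norm_piCore2Of hH.norm)

theorem U1 {H' : Subgroup G} (hH : MaxM p A θ H) (hC : CB θ B ≤ H) (hH' : MaxM p A θ H')
    (hC' : CB θ B ≤ H') (h1 : 𝐐 H' ≤ 𝐐 H) (h2 : 𝐐 H ≤ H') : H = H' := by
  have nQ : Ω ≤ N[𝐐 H] := le_norm_piCoreOf (nH hH.mem hC)
  have nQ' : Ω ≤ N[𝐐 H'] := le_norm_piCoreOf (nH hH'.mem hC')
  have nR' : Ω ≤ N[𝐑 H'] := le_norm_piCore2Of (nH hH'.mem hC')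
  have pg := piCoreOf_isPGroup E.hq H
  have key : ∀ W : Subgroup G, W ≠ ⊥ → W ≤ 𝐐 H → H ≤ N[W] → Ω ≤ N[W] → 𝐑 H' ⊓ N[W] ≤ H :=
    fun W w1 w2 w3 w4 => E.le_max' hH (w2.trans (piCoreOf_le _ _)) (le_sup_left.trans w4) w1 w3
      ((memR hH'.mem).inf_norm (le_sup_left.trans w4)) inf_le_right
  obtain ⟨W, w1, w2, w3, w4, w5⟩ := push E.hp E.hp2 E.hq E.hB.isPGroup (E.hB.le.trans le_sup_left)
    pg (E.Q_ne_bot hH hC) (E.side1 hH' hC' pg h1 h2 nQ)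
    (E.side0 hH.mem (piCoreOf_le _ _) (self_le_norm_piCoreOf _ _)
      (inf_cent_piCoreOf_le hH.mem.solv (E.chr H hH hC)))
    nQ (le_norm_sup nR' nQ) (nH hH.mem hC) nQ' nQ nR' nQ
    (fun W w1 w2 w3 w4 => (key W w1 w2 w3 w4).trans (self_le_norm_piCoreOf _ _))
    (fun W _ _ _ _ => inf_le_left.trans (h2.trans (self_le_norm_piCoreOf _ _)))
  have h3 : 𝐑 H' ≤ H := (le_inf le_rfl (le_sup_left.trans w3)).trans (key W w1 w2 w4 w5)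
  have h4 : 𝐐 H ≤ 𝐐 H' := le_core_of_comm_q E.hq hH'.mem.solv h2 pg pg
    (commutator_le_of_le_norm_right (h3.trans (self_le_norm_piCoreOf _ _)))
  refine (hH'.eq_of_le hH (E.le_max_core (π := {q}) hH' (E.Q_ne_bot hH' hC') hH.mem ?_))
  rw [le_antisymm h1 h4]
  exact self_le_norm_piCoreOf _ _

theorem U2 {H' : Subgroup G} (hH : MaxM p A θ H) (hC : CB θ B ≤ H) (hH' : MaxM p A θ H')
    (hC' : CB θ B ≤ H') (h : 𝐑 H ≤ H') : H = H' := by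
  have h2 : 𝐐 H ≤ H' := piCoreOf_le_piCore2Of_left.trans h
  have pg := piCoreOf_isPGroup E.hq H
  have pg' := piCoreOf_isPGroup E.hq H'
  have nQ : 𝐐 H ≤ N[𝐐 H'] := h2.trans (self_le_norm_piCoreOf _ _)
  refine E.U1 hH hC hH' hC' ?_ h2
  have h3 : 𝐐 H' ⊓ H ≤ 𝐐 H := le_core_of_comm_q E.hq hH.mem.solv inf_le_right
    (pg'.to_le inf_le_left) pg' ((commutator_mono le_rfl inf_le_left).trans
      (commutator_le_of_le_norm_right (h.trans (self_le_norm_piCoreOf _ _))))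
  have h4 : 𝐐 H' ⊓ N[𝐐 H] ≤ H := E.le_max_core hH (E.Q_ne_bot hH hC)
    ((hH'.mem.core _).inf_norm (le_norm_piCoreOf hH.mem.norm)) inf_le_right
  by_contra hn
  have h5 : 𝐐 H < 𝐐 H ⊔ 𝐐 H' := lt_of_le_of_ne le_sup_left fun e => hn (e ▸ le_sup_right)
  have h6 := lt_inf_norm_of_isPGroup E.hq (IsPGroup.to_sup_of_normal_right' pg pg' nQ) h5
  rw [dedekind (.inl nQ) (le_norm_self le_rfl)] at h6
  exact h6.not_ge (sup_le le_rfl ((le_inf inf_le_left h4).trans h3))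

theorem PP {H₁ H₂ : Subgroup G} (h₁ : MaxM p A θ H₁) (c₁ : CB θ B ≤ H₁) (h₂ : MaxM p A θ H₂)
    (c₂ : CB θ B ≤ H₂) (q₁ : 𝐐 H₁ ≤ H₂) (q₂ : 𝐐 H₂ ≤ H₁) : H₁ = H₂ := by
  have nQ₁ : Ω ≤ N[𝐐 H₁] := le_norm_piCoreOf (nH h₁.mem c₁)
  have nQ₂ : Ω ≤ N[𝐐 H₂] := le_norm_piCoreOf (nH h₂.mem c₂)
  have nR₁ : Ω ≤ N[𝐑 H₁] := le_norm_piCore2Of (nH h₁.mem c₁)
  have nR₂ : Ω ≤ N[𝐑 H₂] := le_norm_piCore2Of (nH h₂.mem c₂)
  have nP : Ω ≤ N[𝐐 H₁ ⊔ 𝐐 H₂] := le_norm_sup nQ₁ nQ₂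
  have p₁ : 𝐐 H₁ ⊔ 𝐐 H₂ ≤ H₁ := sup_le (piCoreOf_le _ _) q₂
  have p₂ : 𝐐 H₁ ⊔ 𝐐 H₂ ≤ H₂ := sup_le q₁ (piCoreOf_le _ _)
  have pg : IsPGroup q ↥(𝐐 H₁ ⊔ 𝐐 H₂) := E.pgP.to_le
    (sup_le (core_le_qB E.hq h₁.mem c₁) (core_le_qB E.hq h₂.mem c₂))
  have key : ∀ {H : Subgroup G}, MaxM p A θ H → CB θ B ≤ H → ∀ W : Subgroup G, W ≠ ⊥ →
      W ≤ 𝐐 H₁ ⊔ 𝐐 H₂ → 𝐑 H ≤ N[W] → Ω ≤ N[W] → ∀ V, Mem p A θ V → V ≤ N[W] → V ≤ H := by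
    intro H hH hC W w1 w2 w3 w4
    obtain ⟨M, hM, cM, hall⟩ := E.exists_over (h₁.mem.of_le (w2.trans p₁) (le_sup_left.trans w4)) w1 w4
    rw [E.U2 hH hC hM cM (hall _ (memR hH.mem) w3)]
    exact hall
  obtain ⟨W, w1, w2, w3, w4, w5⟩ := push E.hp E.hp2 E.hq E.hB.isPGroup (E.hB.le.trans le_sup_left)
    pg (ne_bot_of_le (E.Q_ne_bot h₁ c₁) le_sup_left) (E.side1 h₁ c₁ pg le_sup_left p₁ nP)
    (E.side1 h₂ c₂ pg le_sup_right p₂ nP) nP (le_norm_sup nR₁ nP) (le_norm_sup nR₂ nP) nQ₁ nQ₂ nR₁ nR₂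
    (fun W w1 w2 w3 w4 => (key h₂ c₂ W w1 w2 (le_sup_left.trans w3) w4 _
      ((memR h₁.mem).inf_norm (le_sup_left.trans w4)) inf_le_right).trans
        (self_le_norm_piCoreOf _ _))
    (fun W w1 w2 w3 w4 => (key h₁ c₁ W w1 w2 (le_sup_left.trans w3) w4 _
      ((memR h₂.mem).inf_norm (le_sup_left.trans w4)) inf_le_right).trans
        (self_le_norm_piCoreOf _ _))
  exact E.U2 h₁ c₁ h₂ c₂ (key h₂ c₂ W w1 w2 (le_sup_left.trans w4) w5 _ (memR h₁.mem)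
    (le_sup_left.trans w3))

theorem caseQ {H₁ H₂ : Subgroup G} (h₁ : MaxM p A θ H₁) (c₁ : CB θ B ≤ H₁) (h₂ : MaxM p A θ H₂)
    (c₂ : CB θ B ≤ H₂) (q₂ : 𝐐 H₂ ≤ H₁) (q₁ : ¬ 𝐐 H₁ ≤ H₂)
    (hmax : ∀ H, MaxM p A θ H → CB θ B ≤ H → 𝐏 ⊓ H₁ ⊓ H₂ < 𝐏 ⊓ H₁ ⊓ H → H₁ = H) : H₁ = H₂ := by
  have nQ₁ : Ω ≤ N[𝐐 H₁] := le_norm_piCoreOf (nH h₁.mem c₁)
  have nQ₂ : Ω ≤ N[𝐐 H₂] := le_norm_piCoreOf (nH h₂.mem c₂)
  have nR₂ : Ω ≤ N[𝐑 H₂] := le_norm_piCore2Of (nH h₂.mem c₂)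
  obtain ⟨Q₀, hQ₀⟩ : ∃ Q₀, Q₀ = 𝐐 H₂ ⊔ (𝐐 H₁ ⊓ H₂) := ⟨_, rfl⟩
  have n0 : Ω ≤ N[Q₀] := hQ₀ ▸ le_norm_sup nQ₂ (le_norm_inf nQ₁ (nH h₂.mem c₂))
  have l2 : 𝐐 H₂ ≤ Q₀ := hQ₀ ▸ le_sup_left
  have l1 : 𝐐 H₁ ⊓ H₂ ≤ Q₀ := hQ₀ ▸ le_sup_right
  have p₁ : Q₀ ≤ H₁ := hQ₀ ▸ sup_le q₂ (inf_le_left.trans (piCoreOf_le _ _))
  have p₂ : Q₀ ≤ H₂ := hQ₀ ▸ sup_le (piCoreOf_le _ _) inf_le_right
  have pP : Q₀ ≤ 𝐏 := hQ₀ ▸ sup_le (core_le_qB E.hq h₂.mem c₂)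
    (inf_le_left.trans (core_le_qB E.hq h₁.mem c₁))
  have pg : IsPGroup q Q₀ := E.pgP.to_le pP
  have nn : H₁ ⊓ H₂ ≤ N[Q₀] := hQ₀ ▸ le_norm_sup (inf_le_right.trans (self_le_norm_piCoreOf _ _))
    (le_norm_inf (inf_le_left.trans (self_le_norm_piCoreOf _ _)) (le_norm_self inf_le_right))
  have mL : Mem p A θ (H₁ ⊓ N[Q₀]) := h₁.mem.inf_norm (le_sup_left.trans n0)
  have big : ¬ 𝐐 H₁ ⊓ N[Q₀] ≤ H₂ := fun h => by
    have nQ : Q₀ ≤ N[𝐐 H₁] := p₁.trans (self_le_norm_piCoreOf _ _)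
    have h5 : Q₀ < Q₀ ⊔ 𝐐 H₁ := lt_of_le_of_ne le_sup_left fun e => q₁ (le_sup_right.trans (e.ge.trans p₂))
    have h6 := lt_inf_norm_of_isPGroup E.hq
      (IsPGroup.to_sup_of_normal_right' pg (piCoreOf_isPGroup E.hq _) nQ) h5
    rw [dedekind (.inl nQ) (le_norm_self le_rfl)] at h6
    exact h6.not_ge (sup_le le_rfl ((le_inf inf_le_left h).trans l1))
  have key : ∀ W : Subgroup G, W ≠ ⊥ → W ≤ Q₀ → H₁ ⊓ N[Q₀] ≤ N[W] → Ω ≤ N[W] →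
      ∀ V, Mem p A θ V → V ≤ N[W] → V ≤ H₁ := by
    intro W w1 w2 w3 w4
    obtain ⟨M, hM, cM, hall⟩ := E.exists_over (h₁.mem.of_le (w2.trans p₁) (le_sup_left.trans w4)) w1 w4
    have h3 : H₁ ⊓ N[Q₀] ≤ M := hall _ mL w3
    rw [hmax M hM cM (lt_of_le_of_ne (le_inf inf_le_left ((le_inf (inf_le_left.trans inf_le_right)
      ((inf_le_inf_right _ inf_le_right).trans nn)).trans h3)) fun e => big ?_)]
    · exact hall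
    · refine le_trans ?_ (e.ge.trans inf_le_right)
      exact le_inf (le_inf (inf_le_left.trans (core_le_qB E.hq h₁.mem c₁))
        (inf_le_left.trans (piCoreOf_le _ _))) ((inf_le_inf_right _ (piCoreOf_le _ _)).trans h3)
  have cc : H₁ ⊓ N[Q₀] ⊓ C[Q₀] ≤ Q₀ := by
    have h3 : H₁ ⊓ N[Q₀] ⊓ C[Q₀] ≤ C[𝐐 H₂] := inf_le_right.trans (cent_anti l2)
    have h4 : H₁ ⊓ N[Q₀] ⊓ C[Q₀] ≤ H₂ := E.le_max_core h₂ (E.Q_ne_bot h₂ c₂)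
      (mL.inf_cent (le_sup_left.trans n0)) (le_norm_of_cent h3)
    exact ((le_inf h4 h3).trans (inf_cent_piCoreOf_le h₂.mem.solv (E.chr _ h₂ c₂))).trans l2
  obtain ⟨W, w1, w2, w3, w4, w5⟩ := push E.hp E.hp2 E.hq E.hB.isPGroup (E.hB.le.trans le_sup_left)
    pg (ne_bot_of_le (E.Q_ne_bot h₂ c₂) l2) (E.side1 h₂ c₂ pg l2 p₂ n0)
    (E.side0 mL (le_inf p₁ (le_norm_self le_rfl)) inf_le_right cc) n0 (le_norm_sup nR₂ n0)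
    (le_norm_inf (nH h₁.mem c₁) (le_norm_norm n0)) nQ₂ n0 nR₂ n0
    (fun W w1 w2 w3 w4 => (le_inf (key W w1 w2 w3 w4 _
      ((memR h₂.mem).inf_norm (le_sup_left.trans w4)) inf_le_right)
      (inf_le_left.trans (piCore2Of_le _ _ _))).trans nn)
    (fun W _ _ _ _ => inf_le_left.trans (p₂.trans (self_le_norm_piCoreOf _ _)))
  exact (E.U2 h₂ c₂ h₁ c₁ (key W w1 w2 w4 w5 _ (memR h₂.mem) (le_sup_left.trans w3))).symm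

theorem uniq_aux (hV : 𝐏 ⊓ CB θ B ≠ ⊥) (n : ℕ) : ∀ H₁ H₂ : Subgroup G, MaxM p A θ H₁ → CB θ B ≤ H₁ →
    MaxM p A θ H₂ → CB θ B ≤ H₂ → Nat.card G - Nat.card ↥(𝐏 ⊓ H₁ ⊓ H₂) = n → H₁ = H₂ := by
  induction n using Nat.strong_induction_on with
  | _ n ih =>
  intro H₁ H₂ h₁ c₁ h₂ c₂ hn
  have step : ∀ K K' : Subgroup G, MaxM p A θ K → CB θ B ≤ K → MaxM p A θ K' → CB θ B ≤ K' →
      𝐏 ⊓ H₁ ⊓ H₂ < 𝐏 ⊓ K ⊓ K' → K = K' := fun K K' k1 k2 k3 k4 hlt => by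
    refine ih _ ?_ K K' k1 k2 k3 k4 rfl
    have := card_lt_of_lt hlt
    have := (𝐏 ⊓ K ⊓ K').card_le_card_group
    omega
  by_cases q₁ : 𝐐 H₁ ≤ H₂
  · by_cases q₂ : 𝐐 H₂ ≤ H₁
    · exact E.PP h₁ c₁ h₂ c₂ q₁ q₂
    · exact (E.caseQ h₂ c₂ h₁ c₁ q₁ q₂ fun H hH cH hlt => step _ _ h₂ c₂ hH cH
        (by rwa [inf_right_comm])).symm
  · by_cases q₂ : 𝐐 H₂ ≤ H₁
    · exact E.caseQ h₁ c₁ h₂ c₂ q₂ q₁ fun H hH cH hlt => step _ _ h₁ c₁ hH cH hlt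
    have nD : Ω ≤ N[𝐏 ⊓ H₁ ⊓ H₂] := le_norm_inf (le_norm_inf E.nP (nH h₁.mem c₁)) (nH h₂.mem c₂)
    have nA := le_sup_left.trans nD
    obtain ⟨M, hM, cM, hall⟩ := E.exists_over (h₂.mem.of_le inf_le_right nA)
      (ne_bot_of_le hV (le_inf (inf_le_inf_left _ c₁) (inf_le_right.trans c₂))) nD
    have k : ∀ K : Subgroup G, MaxM p A θ K → CB θ B ≤ K → 𝐏 ⊓ H₁ ⊓ H₂ < 𝐏 ⊓ K → K = M := by
      intro K hK cK hlt
      refine step _ _ hK cK hM cM ((lt_inf_norm_of_isPGroup E.hq (E.pgP.to_le inf_le_left)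
        hlt).trans_le (le_inf inf_le_left (hall _ ?_ inf_le_right)))
      exact (hK.mem.inf_right (le_sup_left.trans E.nP)).inf_norm nA
    rw [k H₁ h₁ c₁ (lt_of_le_of_ne inf_le_left fun e => q₁ ((le_inf (core_le_qB E.hq h₁.mem c₁)
        (piCoreOf_le _ _)).trans (e.ge.trans inf_le_right))),
      k H₂ h₂ c₂ (lt_of_le_of_ne (inf_le_inf_right _ inf_le_left) fun e =>
        q₂ ((le_inf (core_le_qB E.hq h₂.mem c₂) (piCoreOf_le _ _)).trans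
          (e.ge.trans (inf_le_left.trans inf_le_right))))]

theorem false (hV : 𝐏 ⊓ CB θ B ≠ ⊥) : False := by
  obtain ⟨M, hM, cM⟩ := exists_maxM E.memB
  refine E.nc (E.complete_of_line hM.mem E.hB.le (E.line_not_cyclic E.hB) fun b hb b1 => ?_)
  obtain ⟨K, hK, h⟩ := exists_maxM (E.mem (E.hB.le hb) b1)
  rw [E.uniq_aux hV _ M K hM cM hK ((CB_le hb b1).trans h) rfl]
  exact h

end CQ
end Cfsg.Agent.Sig
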