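import Cfsg.Agent.Sig.A3

/-! Strong `q`-members and the maximal member they determine. -/

set_option autoImplicit false
open Cfsg Subgroup Cfsg.Agent.GT Cfsg.Agent.BG
open scoped commutatorElement

namespace Cfsg.Agent.Sig
universe u
variable {G : Type u} [Group G] {π : Set ℕ} {p q r s : ℕ}
  {A B D H K L M N P S T U V W X Y Z : Subgroup G} {θ : G → Subgroup G} {a b c : G}

/-- the intersection of the `qB` over all lines -/
def qs (p : ℕ) (A : Subgroup G) (θ : G → Subgroup G) (q : ℕ) : Subgroup G :=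
  ⨅ (B : Subgroup G) (_ : PnElem p 2 A B), qB p A θ q B

theorem qs_le (hB : PnElem p 2 A B) : qs p A θ q ≤ qB p A θ q B :=
  iInf_le_of_le B (iInf_le_of_le hB le_rfl)

theorem le_qs (h : ∀ B, PnElem p 2 A B → X ≤ qB p A θ q B) : X ≤ qs p A θ q :=
  le_iInf fun B => le_iInf fun hB => h B hB

/-- `O_{q'}(θ(N(V)))` -/
def Yv (p : ℕ) (A : Subgroup G) (θ : G → Subgroup G) (q : ℕ) (V : Subgroup G) : Subgroup G :=
  piCoreOf {q}ᶜ (Nth p A θ V)

variable [Finite G]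

theorem SF.exists_a_line (F : SF p A θ) : ∃ B, PnElem p 2 A B := by
  haveI := Fact.mk F.hp
  obtain ⟨M, -, hM⟩ := PG.exists_covBy_of_lt (bot_lt_iff_ne_bot.2 F.A_ne_bot)
  have h := PG.card_eq_mul_of_covBy F.hA.isPGroup hM
  rw [F.hA.card, pow_succ'] at h
  exact ⟨M, hM.le, ⟨isMulCommutative_of_le F.comm hM.le, fun x hx => F.hA.elem.2 x (hM.le hx)⟩,
    (Nat.eq_of_mul_eq_mul_left F.hp.pos h).symm⟩

theorem cent_of_core (hq : q.Prime) (hV : V ≤ piCoreOf {q} H) (hY : Y ≤ piCoreOf {q}ᶜ H) :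
    Y ≤ C[V] := hY.trans (piCoreOf_compl_le_cent.trans (cent_anti hV))

theorem pi_compl_of_ne (hs : s.Prime) (h : s ≠ q) (hU : IsPGroup s U) : IsPiSubgroup {q}ᶜ U :=
  isPi_of_isPGroup_mem hs hU h

theorem core_le_compl (h : s ≠ q) : piCoreOf {s} H ≤ piCoreOf {q}ᶜ H := piCoreOf_single_le h

theorem cent_of_inf (hs : s.Prime) (hq : q.Prime) (h : s ≠ q) (hU : IsPGroup s U)
    (hV : IsPGroup q V) (h1 : ⁅X, Y⁆ ≤ U) (h2 : ⁅X, Y⁆ ≤ V) : X ≤ C[Y] := by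
  rw [le_cent_iff_commutator_eq_bot, eq_bot_iff,
    ← (pi_compl_of_ne hs h hU).inf_eq_bot' (isPi_of_isPGroup hq hV)]
  exact le_inf h1 h2

namespace CE
variable (E : CE p A θ)
include E

local notation "𝐖" => qs p A θ q
local notation "𝐘" => Yv p A θ q (qs p A θ q)

theorem qs_spec (hq : q.Prime) : Mem p A θ 𝐖 ∧ IsPGroup q 𝐖 ∧ CB θ A ≤ N[𝐖] := by
  obtain ⟨B, hB⟩ := E.exists_a_line
  refine ⟨(E.qB_spec hq hB.le).1.of_le (qs_le hB) ?_, (E.qB_spec hq hB.le).2.1.to_le (qs_le hB), ?_⟩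
  · exact le_norm_iInf fun B => le_norm_iInf fun hB => (E.qB_spec hq hB.le).1.norm
  · exact le_norm_iInf fun B => le_norm_iInf fun hB =>
      (CB_anti hB.le).trans (E.qB_spec hq hB.le).2.2

/-- strong subgroups lie in `O_q` of every member -/
theorem le_core_of_qs (hq : q.Prime) (hX : Mem p A θ X) (hV : V ≤ 𝐖) (hVX : V ≤ X) :
    V ≤ piCoreOf {q} X := by
  refine le_core_of_comm hX.solv hVX (isPi_of_isPGroup hq ((E.qs_spec hq).2.1.to_le hV)) ?_
  have hR : piCore2Of {q} {q}ᶜ X ≤ X := piCore2Of_le _ _ _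
  refine comm_le_of_le_cmod (E.gen_lines (hX.of_le hR (le_norm_piCore2Of hX.norm)) fun B hB => ?_)
  refine le_cmod ((inf_le_left.trans hR).trans (self_le_norm_piCoreOf _ _)) ?_
  obtain ⟨-, h2, h3⟩ := E.qB_spec hq hB.le
  refine le_core_of_le_core2 ((commutator_mono inf_le_left le_rfl).trans
    (commutator_le_of_le_norm_left (hVX.trans (self_le_norm_piCore2Of _ _ _))))
    ((isPi_of_isPGroup hq h2).of_le ((commutator_mono le_rfl (hV.trans (qs_le hB))).trans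
    (commutator_le_of_le_norm_right ?_)))
  exact ((inf_le_inf_right _ hR).trans (hX.le_CB hB.le)).trans h3

theorem Yv_step (hq : q.Prime) {V' : Subgroup G} (h1 : V ≠ ⊥) (hA : A ≤ N[V]) (hVV : V ≤ V')
    (hn : V' ≤ N[V]) (hA' : A ≤ N[V']) (hW : V' ≤ 𝐖) : Yv p A θ q V = Yv p A θ q V' := by
  have mV' : Mem p A θ V' := (E.qs_spec hq).1.of_le hW hA'
  have mN := E.mem_Nth (mV'.of_le hVV hA) h1
  have mN' := E.mem_Nth mV' (ne_bot_of_le h1 hVV)
  have pg : IsPGroup q V' := (E.qs_spec hq).2.1.to_le hW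
  have l1 : V' ≤ Nth p A θ V := le_Nth mV' hn
  have l2 : V' ≤ Nth p A θ V' := le_Nth mV' (le_norm_self le_rfl)
  have e : Nth p A θ V ⊓ C[V'] = Nth p A θ V' ⊓ C[V'] := le_antisymm
    (le_inf (le_Nth (mN.inf_cent hA') (le_norm_of_cent inf_le_right)) inf_le_right)
    (le_inf (le_Nth (mN'.inf_cent hA') (le_norm_of_cent (inf_le_right.trans (cent_anti hVV))))
      inf_le_right)
  have k : ∀ {N : Subgroup G}, Mem p A θ N → V' ≤ N → piCoreOf {q}ᶜ N = piCoreOf {q}ᶜ (N ⊓ C[V']) :=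
    fun hN hl => le_antisymm (piCoreOf_le_of_le_of_le (le_inf (piCoreOf_le _ _)
      (cent_of_core hq (E.le_core_of_qs hq hN hW hl) le_rfl)) inf_le_left)
      (piCoreOf_compl_cent_le hq hN.solv hl pg)
  unfold Yv
  rw [k mN l1, k mN' l2, e]

theorem Yv_aux (hq : q.Prime) (n : ℕ) : ∀ V : Subgroup G, V ≠ ⊥ → A ≤ N[V] → V ≤ 𝐖 →
    Nat.card G - Nat.card V = n → Yv p A θ q V = 𝐘 := by
  induction n using Nat.strong_induction_on with
  | _ n ih =>
  intro V h1 hA hW hn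
  rcases hW.eq_or_lt with rfl | hlt
  · rfl
  have h2 := lt_inf_norm_of_isPGroup hq (E.qs_spec hq).2.1 hlt
  have hA' := ((E.qs_spec hq).1.inf_norm hA).norm
  rw [E.Yv_step hq h1 hA h2.le inf_le_right hA' inf_le_left]
  refine ih _ ?_ _ (ne_bot_of_le h1 h2.le) hA' inf_le_left rfl
  have := card_lt_of_lt h2
  have := (𝐖 ⊓ N[V]).card_le_card_group
  omega

theorem Yv_eq (hq : q.Prime) (h1 : V ≠ ⊥) (hA : A ≤ N[V]) (hW : V ≤ 𝐖) : Yv p A θ q V = 𝐘 :=
  E.Yv_aux hq _ V h1 hA hW rfl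

theorem mem_Y (hq : q.Prime) (h1 : 𝐖 ≠ ⊥) : Mem p A θ 𝐘 := (E.mem_Nth (E.qs_spec hq).1 h1).core _

theorem le_norm_Y (hq : q.Prime) (h1 : V ≠ ⊥) (hA : A ≤ N[V]) (hW : V ≤ 𝐖) (hU : Mem p A θ U)
    (hn : U ≤ N[V]) : U ≤ N[𝐘] := by
  rw [← E.Yv_eq hq h1 hA hW]
  exact (le_Nth hU hn).trans (self_le_norm_piCoreOf _ _)

theorem Y_le_cent (hq : q.Prime) (h1 : 𝐖 ≠ ⊥) : 𝐘 ≤ C[𝐖] :=
  cent_of_core hq (E.le_core_of_qs hq (E.mem_Nth (E.qs_spec hq).1 h1) le_rfl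
    (le_Nth (E.qs_spec hq).1 (le_norm_self le_rfl))) le_rfl

omit E in
theorem center_spec (hq : q.Prime) (h : piCoreOf {q} K ≠ ⊥) :
    piCoreOf {q} K ⊓ C[piCoreOf {q} K] ≠ ⊥ ∧ N[K] ≤ N[piCoreOf {q} K ⊓ C[piCoreOf {q} K]] :=
  ⟨center_ne_bot_of_nilpotent (nilpotent_of_isPGroup hq (piCoreOf_isPGroup hq _)) h,
    le_norm_inf (norm_le_norm_piCoreOf _ _) (le_norm_cent (norm_le_norm_piCoreOf _ _))⟩

theorem le_max_center (hq : q.Prime) (hK : MaxM p A θ K) (h : piCoreOf {q} K ≠ ⊥) (hU : Mem p A θ U)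
    (hc : U ≤ C[piCoreOf {q} K ⊓ C[piCoreOf {q} K]]) : U ≤ K :=
  E.le_max' hK (inf_le_left.trans (piCoreOf_le _ _)) (hK.mem.norm.trans (center_spec hq h).2)
    (center_spec hq h).1 ((le_norm_self le_rfl).trans (center_spec hq h).2) hU (le_norm_of_cent hc)

theorem S3 (hq : q.Prime) (hK : MaxM p A θ K) (h : K ⊓ 𝐖 ≠ ⊥) : piCoreOf {q}ᶜ K = 𝐘 ⊓ K := by
  obtain ⟨mW, pW, -⟩ := E.qs_spec hq
  have mV : Mem p A θ (K ⊓ 𝐖) := hK.mem.inf_left mW.norm
  have hW1 : 𝐖 ≠ ⊥ := ne_bot_of_le h inf_le_right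
  have hVQ : K ⊓ 𝐖 ≤ piCoreOf {q} K := E.le_core_of_qs hq hK.mem inf_le_right inf_le_left
  refine le_antisymm (le_inf ?_ (piCoreOf_le _ _)) ?_
  · rw [← E.Yv_eq hq h mV.norm inf_le_right]
    have mN := E.mem_Nth mV h
    have mQ : Mem p A θ (piCoreOf {q} K ⊓ C[K ⊓ 𝐖]) := (hK.mem.core _).inf_cent mV.norm
    have l1 : piCoreOf {q} K ⊓ C[K ⊓ 𝐖] ≤ Nth p A θ (K ⊓ 𝐖) :=
      le_Nth mQ (le_norm_of_cent inf_le_right)
    refine le_trans ?_ (piCoreOf_compl_cent_le hq mN.solv l1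
      ((piCoreOf_isPGroup hq _).to_le inf_le_left))
    refine le_piCoreOf (le_inf (le_Nth (hK.mem.core _) (le_norm_of_cent (cent_of_core hq hVQ le_rfl)))
      (cent_of_core hq inf_le_left le_rfl)) ?_ (piCoreOf_isPi _ _)
    refine le_trans ?_ (self_le_norm_piCoreOf _ _)
    exact E.le_max_center hq hK (ne_bot_of_le h hVQ) (mN.inf_cent mQ.norm)
      (inf_le_right.trans (cent_anti (inf_le_inf_left _ (cent_anti hVQ))))
  · refine le_trans ?_ (piCoreOf_compl_cent_le hq hK.mem.solv inf_le_left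
      (pW.to_le (inf_le_right : K ⊓ 𝐖 ≤ 𝐖)))
    refine le_piCoreOf (le_inf inf_le_right (inf_le_left.trans ((E.Y_le_cent hq hW1).trans
      (cent_anti inf_le_right)))) (le_norm_inf ?_ (le_norm_self inf_le_left))
      (piCoreOf_isPi _ _).inf_left
    exact E.le_norm_Y hq h mV.norm inf_le_right (hK.mem.inf_cent mV.norm)
      (le_norm_of_cent inf_le_right)

theorem Y_ne_bot (hq : q.Prime) (h1 : 𝐖 ≠ ⊥) : 𝐘 ≠ ⊥ := fun h0 => by
  obtain ⟨mW, -, -⟩ := E.qs_spec hq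
  obtain ⟨B, hB, h2⟩ := E.exists_line mW h1
  have h3 := mW.le_CB hB.le
  refine CQ.false ⟨E, hq, hB, fun K hK hC => ?_⟩
    (ne_bot_of_le h2 (le_inf (inf_le_left.trans (qs_le hB)) h3))
  rw [E.S3 hq hK (ne_bot_of_le h2 (le_inf (h3.trans hC) inf_le_left)), h0, bot_inf_eq]

end CE

/-- the maximal member determined by the strong `q`-members -/
structure SM (p : ℕ) (A : Subgroup G) (θ : G → Subgroup G) (q : ℕ) (M : Subgroup G) : Prop where
  hq : q.Prime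
  ne : qs p A θ q ≠ ⊥
  max : MaxM p A θ M
  core : piCoreOf {q}ᶜ M = Yv p A θ q (qs p A θ q)

namespace CE
variable (E : CE p A θ)
include E

local notation "𝐖" => qs p A θ q
local notation "𝐘" => Yv p A θ q (qs p A θ q)

theorem exists_SM (hq : q.Prime) (h1 : 𝐖 ≠ ⊥) : ∃ M, SM p A θ q M := by
  obtain ⟨M, hM, h⟩ := E.exists_max_norm (E.mem_Y hq h1) (E.Y_ne_bot hq h1)
  obtain ⟨mW, -, -⟩ := E.qs_spec hq
  have h2 : 𝐖 ≤ M := h _ mW (E.le_norm_Y hq h1 mW.norm le_rfl mW (le_norm_self le_rfl))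
  refine ⟨M, hq, h1, hM, ?_⟩
  rw [E.S3 hq hM (by rwa [inf_eq_right.2 h2]),
    inf_eq_left.2 (h _ (E.mem_Y hq h1) (le_norm_self le_rfl))]

theorem SM_le (h : SM p A θ q M) (h1 : V ≠ ⊥) (hA : A ≤ N[V]) (hW : V ≤ 𝐖) (hU : Mem p A θ U)
    (hn : U ≤ N[V]) : U ≤ M :=
  E.le_max_core (π := {q}ᶜ) h.max (by rw [h.core]; exact E.Y_ne_bot h.hq h.ne) hU
    (by rw [h.core]; exact E.le_norm_Y h.hq h1 hA hW hU hn)

theorem SM_W (h : SM p A θ q M) : 𝐖 ≤ piCoreOf {q} M :=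
  E.le_core_of_qs h.hq h.max.mem le_rfl (E.SM_le h h.ne (E.qs_spec h.hq).1.norm le_rfl
    (E.qs_spec h.hq).1 (le_norm_self le_rfl))

theorem S4 (h : SM p A θ q M) (hK : MaxM p A θ K) (h1 : K ⊓ 𝐖 ≠ ⊥) (hne : K ≠ M) :
    ∃ s, s.Prime ∧ s ≠ q ∧ piCoreOf {s} M ≠ ⊥ ∧ piCoreOf {s} K = ⊥ ∧ piCoreOf {s} M ⊓ K = ⊥ := by
  have hq := h.hq
  obtain ⟨mW, pW, -⟩ := E.qs_spec hq
  have mV : Mem p A θ (K ⊓ 𝐖) := hK.mem.inf_left mW.norm
  have hVQ : K ⊓ 𝐖 ≤ piCoreOf {q} K := E.le_core_of_qs hq hK.mem inf_le_right inf_le_left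
  have hQ1 : piCoreOf {q} K ≠ ⊥ := ne_bot_of_le h1 hVQ
  have pQ := piCoreOf_isPGroup hq K
  have e3 : piCoreOf {q}ᶜ K = piCoreOf {q}ᶜ M ⊓ K := by rw [h.core]; exact E.S3 hq hK h1
  have lM : piCoreOf {q}ᶜ K ≤ M := e3.le.trans (inf_le_left.trans (piCoreOf_le _ _))
  have cM : piCoreOf {q} K ⊓ C[K ⊓ 𝐖] ≤ M := E.SM_le h h1 mV.norm inf_le_right
    ((hK.mem.core _).inf_cent mV.norm) (le_norm_of_cent inf_le_right)
  by_cases hall : ∀ s, s.Prime → s ≠ q → piCoreOf {s} M ≠ ⊥ → piCoreOf {s} K ≠ ⊥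
  · exfalso
    have k1 : ∀ s, s.Prime → s ≠ q → piCoreOf {s} M ≤ K := fun s hs sq => by
      by_cases h0 : piCoreOf {s} M = ⊥
      · rw [h0]; exact bot_le
      have zM : piCoreOf {q} K ⊓ C[piCoreOf {q} K] ≤ M :=
        (inf_le_inf_left _ (cent_anti hVQ)).trans cM
      have rM : piCoreOf {s} K ≤ M := (core_le_compl sq).trans lM
      have k2 : piCoreOf {s} M ⊓ C[piCoreOf {s} K] ≤ K := E.le_max_core hK (hall s hs sq h0)
        ((h.max.mem.core _).inf_cent (hK.mem.core _).norm) (le_norm_of_cent inf_le_right)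
      refine E.le_max_center hq hK hQ1 (h.max.mem.core _) (le_cent_symm ?_)
      refine thompson_AxB_pgroup hs (piCoreOf_isPGroup hs M) (piCoreOf_isPGroup hs K)
        (pi_compl_of_ne hq sq.symm (pQ.to_le inf_le_left)) (zM.trans (self_le_norm_piCoreOf _ _))
        (rM.trans (self_le_norm_piCoreOf _ _))
        (le_cent_symm (cent_of_core hq inf_le_left (core_le_compl sq))) ?_
      refine cent_of_inf hs hq sq (piCoreOf_isPGroup hs M) pQ ?_ ?_
      · exact (commutator_mono inf_le_left le_rfl).trans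
          (commutator_le_of_le_norm_left (zM.trans (self_le_norm_piCoreOf _ _)))
      · exact (commutator_mono le_rfl inf_le_left).trans
          (commutator_le_of_le_norm_right (k2.trans (self_le_norm_piCoreOf _ _)))
    have hY1 : piCoreOf {q}ᶜ M ≠ ⊥ := by rw [h.core]; exact E.Y_ne_bot hq h.ne
    have mY := h.max.mem.core {q}ᶜ
    have k3 : fittingOf (piCoreOf {q}ᶜ M) ≤ K := fittingOf_le_of_forall_piCoreOf fun s hs => by
      by_cases sq : s = q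
      · rw [sq, piCoreOf_eq_bot (piCoreOf_isPi _ _)]; exact bot_le
      · rw [piCoreOf_piCoreOf_of_mem (show s ∈ ({q}ᶜ : Set ℕ) from sq)]; exact k1 s hs sq
    have k4 : piCoreOf {q} K ≤ C[fittingOf (piCoreOf {q}ᶜ M)] :=
      le_cent_symm (cent_of_core hq le_rfl (by rw [e3]; exact le_inf (fittingOf_le _) k3))
    have k5 : piCoreOf {q} K ≤ M := E.le_max' h.max ((fittingOf_le _).trans (piCoreOf_le _ _))
      (le_norm_fittingOf mY.norm) (fittingOf_ne_bot mY.solv hY1)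
      (le_norm_fittingOf (self_le_norm_piCoreOf _ _)) (hK.mem.core _) (le_norm_of_cent k4)
    have k6 : piCoreOf {q} K ≤ C[piCoreOf {q}ᶜ M] :=
      coprime_le_cent_of_le_cent_fittingOf mY.solv (k5.trans (self_le_norm_piCoreOf _ _))
        ((piCoreOf_isPi _ _).coprime' (piCoreOf_isPi _ _)) k4
    have k7 : piCoreOf {q}ᶜ M ≤ K := E.le_max_core hK hQ1 mY (le_norm_of_cent (le_cent_symm k6))
    rw [inf_eq_left.2 k7] at e3
    exact hne (h.max.eq_of_le hK (E.le_max_core h.max hY1 hK.mem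
      (e3 ▸ self_le_norm_piCoreOf _ _)))
  push Not at hall
  obtain ⟨s, hs, sq, h2, h3⟩ := hall
  refine ⟨s, hs, sq, h2, h3, ?_⟩
  have pS := piCoreOf_isPGroup hs M
  have k : ∀ {t : ℕ} {R : Subgroup G}, t.Prime → s ≠ t → R ≤ piCoreOf {t} K → R ≤ M →
      piCoreOf {s} M ⊓ K ≤ C[R] := fun ht st r1 r2 =>
    cent_of_inf hs ht st pS (piCoreOf_isPGroup ht K)
      ((commutator_mono inf_le_left le_rfl).trans
        (commutator_le_of_le_norm_left (r2.trans (self_le_norm_piCoreOf _ _))))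
      ((commutator_mono le_rfl r1).trans
        (commutator_le_of_le_norm_right (inf_le_right.trans (self_le_norm_piCoreOf _ _))))
  rw [eq_bot_iff, ← h3]
  refine le_piCoreOf_of_le_fittingOf (le_fittingOf_of_le_cent hK.mem.solv inf_le_right
    (fittingOf_le_cent_of_forall fun t ht => ?_)) (piCoreOf_isPi _ _).inf_left
  by_cases ts : s = t
  · rw [← ts, h3, cent_bot]; exact le_top
  by_cases tq : t = q
  · rw [tq]
    refine thompson_AxB_pgroup hq pQ (pW.to_le (inf_le_right : K ⊓ 𝐖 ≤ 𝐖))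
      (pi_compl_of_ne hs sq (pS.to_le inf_le_left)) (inf_le_right.trans (self_le_norm_piCoreOf _ _))
      (inf_le_left.trans (self_le_norm_piCoreOf _ _))
      (cent_of_core hq (inf_le_right.trans (E.SM_W h)) (inf_le_left.trans (core_le_compl sq)))
      (le_cent_symm (k hq sq inf_le_left cM))
  · exact k ht ts le_rfl ((core_le_compl tq).trans lM)

theorem SM_unique {M' : Subgroup G} (h : SM p A θ q M) (h' : SM p A θ r M') : M = M' := by
  obtain ⟨mW, pW, -⟩ := E.qs_spec h.hq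
  obtain ⟨mW', pW', -⟩ := E.qs_spec h'.hq
  by_cases qr : q = r
  · subst qr
    exact h'.max.eq_of_le h.max (E.le_max_core (π := {q}ᶜ) h'.max
      (by rw [h'.core]; exact E.Y_ne_bot h.hq h.ne) h.max.mem
      (by rw [h'.core, ← h.core]; exact self_le_norm_piCoreOf _ _))
  obtain ⟨B, hB, c1⟩ := E.exists_line mW h.ne
  obtain ⟨B', hB', c2⟩ := E.exists_line mW' h'.ne
  obtain ⟨b, b1, b2, hb⟩ := E.lines_meet hB hB'
  have hbA := hB.le b1
  have m := E.mem hbA hb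
  have v1 : 𝐖 ⊓ C1[b] ≠ ⊥ := ne_bot_of_le c1 (inf_le_inf_left _ (cent_le_cent1 b1))
  have v2 : qs p A θ r ⊓ C1[b] ≠ ⊥ := ne_bot_of_le c2 (inf_le_inf_left _ (cent_le_cent1 b2))
  have l : qs p A θ r ⊓ C1[b] ≤ M := E.SM_le h v1 (mW.inf_left (E.n_cent1 hbA)).norm inf_le_left
    (mW'.inf_left (E.n_cent1 hbA)) (le_norm_of_cent (cent_of_core h.hq
      (E.le_core_of_qs h.hq m inf_le_left (mW.cent b hbA hb))
      ((E.le_core_of_qs h'.hq m inf_le_left (mW'.cent b hbA hb)).trans (core_le_compl (Ne.symm qr)))))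
  have h1 : M ⊓ qs p A θ r ≠ ⊥ := ne_bot_of_le v2 (le_inf l inf_le_left)
  by_contra hne
  obtain ⟨s, hs, -, s1, s2, s3⟩ := E.S4 h' h.max h1 hne
  have sq : s ≠ q := by
    rintro rfl
    exact h.ne (le_bot_iff.1 (s2 ▸ E.SM_W h))
  have l2 : 𝐖 ≤ M' := ((E.SM_W h).trans (core_le_compl qr)).trans (by
    rw [E.S3 h'.hq h.max h1, ← h'.core]; exact inf_le_left.trans (piCoreOf_le _ _))
  have l3 : piCoreOf {s} M' ≤ M := E.SM_le h h.ne mW.norm le_rfl (h'.max.mem.core _)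
    (le_norm_of_cent (cent_of_core h.hq (E.le_core_of_qs h.hq h'.max.mem le_rfl l2)
      (core_le_compl sq)))
  exact s1 (by rwa [inf_eq_left.2 l3] at s3)

/-- commutators with a point of a `θ a`-invariant `q`-member are strong -/
theorem loud (hq : q.Prime) (ha : a ∈ A) (a1 : a ≠ 1) (hU : Mem p A θ U) (pU : IsPGroup q U)
    (hn : θ a ≤ N[U]) (hodd : q ≠ 2 ∨ IsMulCommutative U) : ⁅U, zpowers a⁆ ≤ 𝐖 := by
  have zA := SF.zp_le ha
  refine le_qs fun B hB => E.comm_gen hU hB.le (E.line_not_cyclic hB) (zA.trans hU.norm)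
    (zA.trans (E.A_le_cent hB.le)) (E.cop_zp hU ha) fun f hf f1 => ?_
  have m := E.mem (hB.le hf) f1
  refine le_trans ?_ (core_le_qB hq m (CB_le hf f1))
  refine rfl_core hq m.solv (by rw [E.card_zp ha a1]; exact E.hp)
    (by rw [E.card_zp ha a1]; exact E.hp.odd_of_ne_two E.hp2) (zA.trans m.norm) (E.cop_zp m ha)
    (hU.cent f (hB.le hf) f1) (pU.to_le inf_le_left)
    (zA.trans (hU.inf_left (E.n_cent1 (hB.le hf))).norm)
    (hodd.imp_right fun h => isMulCommutative_of_le h inf_le_left) ?_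
  rw [cent_zpowers]
  exact le_norm_inf ((m.cent a ha a1).trans hn)
    (le_norm_self (inf_le_left.trans (E.cent f (hB.le hf) f1)))

theorem loud_le (hq : q.Prime) (ha : a ∈ A) (a1 : a ≠ 1) (hU : Mem p A θ U) (pU : IsPGroup q U)
    (hn : θ a ≤ N[U]) (hodd : q ≠ 2 ∨ IsMulCommutative U) (hne : ¬ U ≤ C1[a]) :
    ∃ M, SM p A θ q M ∧ θ a ≤ M := by
  have h1 := E.loud hq ha a1 hU pU hn hodd
  have h2 : ⁅U, zpowers a⁆ ≠ ⊥ := fun h =>
    hne (by rw [← cent_zpowers]; exact le_cent_iff_commutator_eq_bot.2 h)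
  obtain ⟨M, hM⟩ := E.exists_SM hq (ne_bot_of_le h2 h1)
  exact ⟨M, hM, E.SM_le hM h2
    (le_norm_commutator hU.norm (le_norm_of_cent (E.A_le_cent (SF.zp_le ha)))) h1 (E.mem ha a1)
    (le_norm_commutator hn (le_norm_of_cent (by rw [cent_zpowers]; exact E.cent a ha a1)))⟩

end CE
end Cfsg.Agent.Sig
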