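import Cfsg.Agent.Sig.L
import Cfsg.Agent.PG.GL2
import Cfsg.Agent.PG.Misc

/-! Counting lemmas for coprime actions. -/

set_option autoImplicit false
open Cfsg Subgroup Cfsg.Agent.GT Cfsg.Agent.BG
open scoped commutatorElement

namespace Cfsg.Agent.Sig
universe u
variable {G : Type u} [Group G] [Finite G] {p q r s : ℕ}
  {A B D H J K M R U V W X Y Z : Subgroup G} {x y : G}

theorem norm_stab (hM : IsMulCommutative M) (hA : A ≤ N[M])
    (hc : (Nat.card M).Coprime (Nat.card A)) (hC : M ⊓ C[A] ≤ K) {g : G} (hg : g ∈ M)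
    (h1 : ∀ a ∈ A, a ∈ B → a * g * a⁻¹ * g⁻¹ ∈ K) (h2 : ∀ a ∈ A, a ∉ B → a * g * a⁻¹ ∈ K) :
    g ∈ K := by
  classical
  have := Fintype.ofFinite A
  let σ : A →* Module.End ℤ (AbV M) := (conjEnd M).comp (inclusion hA)
  have hσ : ∀ (x : A) v, (σ x v).val = x * v.val * (x : G)⁻¹ := fun _ _ => rfl
  let v := AbV.mk g hg
  have hs : (∑ x, σ x v).val ∈ K := by
    refine hC ⟨AbV.val_mem _, fun y hy => ?_⟩
    rw [← mul_inv_eq_iff_eq_mul, ← hσ ⟨y, hy⟩, map_sum,
      ← Equiv.sum_comp (Equiv.mulLeft ⟨y, hy⟩) fun x => σ x v]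
    simp only [Equiv.coe_mulLeft, map_mul, Module.End.mul_apply]
  have h3 : (∑ x : A, (σ x v - if (x : G) ∈ B then v else 0)).val ∈ K := by
    refine Finset.sum_induction _ (fun w : AbV M => w.val ∈ K) (fun a b ha hb => mul_mem ha hb)
      (one_mem K) fun x _ => ?_
    by_cases h : (x : G) ∈ B
    · rw [if_pos h, AbV.val_sub, hσ]; exact h1 x x.2 h
    · rw [if_neg h, sub_zero, hσ]; exact h2 x x.2 h
  rw [Finset.sum_sub_distrib, AbV.val_sub, K.mul_mem_cancel_left hs, inv_mem_iff,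
    ← Finset.sum_filter, Finset.sum_const, AbV.val_nsmul] at h3
  refine PG.mem_of_pow_mem_of_coprime_orderOf h3
    (Nat.Coprime.coprime_dvd_left (orderOf_dvd_card_of_mem hg) (hc.coprime_dvd_right ?_))
  have : (Finset.univ.filter fun x : A => (x : G) ∈ B).card = Nat.card (B.subgroupOf A) := by
    rw [Nat.card_eq_fintype_card, Fintype.card_subtype]
    rfl
  rw [this]
  exact card_subgroup_dvd_card _

/-- norm argument modulo the commutator subgroup -/
theorem norm_stab' (hs : Group.IsSolvable R) (hA : A ≤ N[R])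
    (hc : (Nat.card R).Coprime (Nat.card A)) (hC : R ⊓ C[A] ≤ K) (hK : ⁅R, R⁆ ≤ K) (hKR : K ≤ R)
    {g : G} (hg : g ∈ R) (h1 : ⁅R, A ⊓ B⁆ ≤ K) (h2 : ∀ a ∈ A, a ∉ B → a * g * a⁻¹ ∈ K) :
    g ∈ K := by
  have hR' : ⁅R, R⁆ ≤ R := commutator_le_of_le_norm_left (le_norm_self le_rfl)
  obtain ⟨Q, _, _, f, -, hk⟩ := exists_quo' (R ⊔ A) ⁅R, R⁆ (hR'.trans le_sup_left)
    (sup_le (le_norm_commutator (le_norm_self le_rfl) (le_norm_self le_rfl))
      (le_norm_commutator hA hA))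
  have dR : R ≤ R ⊔ A := le_sup_left
  have dA : A ≤ R ⊔ A := le_sup_right
  rw [← mem_im_iff_of_le (f := f) (dR hg) (hKR.trans dR) (hk ▸ hK)]
  refine norm_stab (B := im f (A ⊓ B)) ((comm_im_iff dR).2 hk.ge) (im_norm hA) (coprime_im hc)
    (by rw [← im_inf_cent_of_coprime' dR dA hA (.inl hs) hc]; exact im_mono hC)
    (mem_im_of_mem _ hg) (fun b _ hb => ?_) fun b hb hb' => ?_
  · obtain ⟨a, haD, ha, rfl⟩ := mem_im.1 hb
    rw [← map_inv, ← map_inv, ← map_mul, ← map_mul, ← map_mul]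
    refine mem_im_of_mem _ ?_
    have := h1 (commutator_mem_commutator hg ha)
    rw [PG.commutator_mem_comm] at this
    exact this
  · obtain ⟨a, haD, ha, rfl⟩ := mem_im.1 hb
    rw [← map_inv, ← map_mul, ← map_mul]
    exact mem_im_of_mem _ (h2 a ha fun h => hb' (mem_im_of_mem _ ⟨ha, h⟩))

/-- a `p`-group acting nontrivially on an `s`-group -/
theorem exists_dvd_pow_sub (hp : p.Prime) (hs : s.Prime) (hps : p ≠ s) (hA : IsPGroup p A)
    (hX : IsPGroup s X) (hn : A ≤ N[X]) (h : ¬ X ≤ C[A]) :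
    ∃ i, 1 ≤ i ∧ s ^ i * Nat.card ↥(X ⊓ C[A]) = Nat.card X ∧ p ∣ s ^ i - 1 := by
  have := Fact.mk hp
  have := Fact.mk hs
  obtain ⟨i, hi⟩ := PG.exists_relIndex_eq_pow hX C[A]
  have e : s ^ i * Nat.card ↥(X ⊓ C[A]) = Nat.card X := by
    rw [← hi, mul_comm, inf_comm, card_inf_mul_relIndex]
  refine ⟨i, Nat.pos_of_ne_zero ?_, e, ?_⟩
  · rintro rfl
    exact h (relIndex_eq_one.1 (by simpa using hi))
  · have h1 := PG.card_modEq_card_inf_cent hA hn
    rw [← e] at h1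
    obtain ⟨k, hk⟩ := PG.exists_card_eq_pow (hX.to_le (inf_le_left : X ⊓ C[A] ≤ X))
    have h2 : s ^ i ≡ 1 [MOD p] := by
      refine Nat.ModEq.cancel_right_of_coprime (c := Nat.card ↥(X ⊓ C[A])) ?_ (by simpa using h1)
      rw [hk]
      exact ((Nat.coprime_primes hp hs).2 hps).pow_right _
    exact (Nat.modEq_iff_dvd' (Nat.one_le_pow _ _ hs.pos)).1 h2.symm

theorem exists_dvd_pow_sub_quo (hp : p.Prime) (hs : s.Prime) (hps : p ≠ s) (hA : IsPGroup p A)
    (hX : IsPGroup s X) (hn : A ≤ N[X]) (hK : K ≤ X) (hXK : X ≤ N[K]) (hAK : A ≤ N[K])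
    (h : ¬ ⁅X, A⁆ ≤ K) : ∃ i, 1 ≤ i ∧ s ^ i ∣ K.relIndex X ∧ p ∣ s ^ i - 1 := by
  obtain ⟨Q, _, _, f, -, hk⟩ := exists_quo' (X ⊔ A) K (hK.trans le_sup_left) (sup_le hXK hAK)
  obtain ⟨i, h1, h2, h3⟩ := exists_dvd_pow_sub hp hs hps (isPGroup_im (f := f) hA) (isPGroup_im hX)
    (im_norm hn) (by rwa [im_le_cent_iff le_sup_left le_sup_right, hk])
  refine ⟨i, h1, ?_, h3⟩
  rw [← hk, ← card_im le_sup_left, ← h2]
  exact Dvd.intro _ rfl

theorem modEq_one_of_fpf (hr : r.Prime) (hA : IsPGroup r A) (hn : A ≤ N[X]) (h : X ⊓ C[A] = ⊥) :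
    r ∣ Nat.card X - 1 := by
  have := Fact.mk hr
  have h1 := PG.card_modEq_card_inf_cent hA hn
  rw [h, card_bot] at h1
  exact (Nat.modEq_iff_dvd' (card_pos' X)).1 h1.symm

/-- order of `[V, x]` -/
theorem card_comm_zpowers (hV : IsMulCommutative V) (hx : x ∈ N[V]) :
    Nat.card ↥⁅V, zpowers x⁆ = (C1[x]).relIndex V := by
  have hc := isMulCommutative_iff_forall.1 hV
  have hm : ∀ v ∈ V, ⁅v, x⁆ ∈ V := fun v hv => by
    rw [commutatorElement_def, mul_assoc, mul_assoc, ← mul_assoc x]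
    exact mul_mem hv (conj_mem_of_mem_norm hx (inv_mem hv))
  let φ : V →* G :=
    { toFun := fun v => ⁅(v : G), x⁆
      map_one' := by simp
      map_mul' := fun v w => by
        have : ⁅((v * w : V) : G), x⁆ = v * ⁅(w : G), x⁆ * (v : G)⁻¹ * ⁅(v : G), x⁆ := by
          simp [commutatorElement_def, mul_assoc]
        rw [this, hc _ v.2 _ (hm _ w.2), mul_inv_cancel_right, hc _ (hm _ w.2) _ (hm _ v.2)] }
  have hk : φ.ker = (C1[x]).subgroupOf V := by
    ext v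
    rw [MonoidHom.mem_ker, mem_subgroupOf, mem_cent1]
    exact commutatorElement_eq_one_iff_mul_comm
  have hr : φ.range = ⁅V, zpowers x⁆ := by
    refine le_antisymm ?_ ?_
    · rintro _ ⟨v, rfl⟩
      exact commutator_mem_commutator v.2 (mem_zpowers x)
    · rw [commutator_comm]
      refine PG.commutator_zpowers_le (mem_normalizer_of_conj_le ?_) fun v hv => ?_
      · rw [conj_le_iff_forall]
        rintro _ ⟨v, rfl⟩
        exact ⟨⟨x * v * x⁻¹, conj_mem_of_mem_norm hx v.2⟩, by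
          simp [φ, commutatorElement_def, mul_assoc]⟩
      · rw [PG.commutator_mem_comm]; exact ⟨⟨v, hv⟩, rfl⟩
  rw [← hr, relIndex, ← hk, index_ker]

omit [Finite G] in
theorem relIndex_cent1_conj {g : G} (hg : g ∈ N[V]) :
    (C1[g * x * g⁻¹]).relIndex V = (C1[x]).relIndex V := by
  rw [← conj_cent1, ← relIndex_conj g C1[x] V, conj_eq_self hg]

theorem relIndex_mono_right (h : W ≤ V) : H.relIndex W ≤ H.relIndex V :=
  relIndex_le_of_le_right h (relIndex_pos _ _).ne'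

theorem card_le_of_inf_eq_bot (h : W ⊓ H = ⊥) : Nat.card W = H.relIndex W := by
  rw [← card_inf_mul_relIndex H W, inf_comm, h, card_bot, one_mul]

/-! ### components -/

/-- the homogeneous piece of `[V, Z]` with kernel `H` -/
def vc (V Z H : Subgroup G) : Subgroup G := ⁅V, Z⁆ ⊓ C[H]

/-- `H` is a hyperplane of `Z` with nontrivial fixed points on `[V, Z]` -/
structure Comp (r : ℕ) (V Z H : Subgroup G) : Prop where
  le : H ≤ Z
  card : Nat.card Z = r * Nat.card H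
  ne : vc V Z H ≠ ⊥

omit [Finite G] in
theorem conj_vc {g : G} (hV : g ∈ N[V]) (hZ : g ∈ N[Z]) :
    cj[g] (vc V Z H) = vc V Z (cj[g] H) := by
  rw [vc, vc, conj_inf, conj_commutator, conj_centralizer, conj_eq_self hV, conj_eq_self hZ]

omit [Finite G] in
theorem Comp.conj (h : Comp r V Z H) {g : G} (hV : g ∈ N[V]) (hZ : g ∈ N[Z]) :
    Comp r V Z (cj[g] H) :=
  ⟨(conj_mono g h.le).trans (conj_eq_self hZ).le, by rw [card_conj]; exact h.card, by
    rw [← conj_vc hV hZ, Ne, conj_eq_bot_iff]; exact h.ne⟩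

omit [Finite G] in
theorem le_norm_vc (hV : A ≤ N[V]) (hZ : A ≤ N[Z]) (hH : A ≤ N[H]) : A ≤ N[vc V Z H] :=
  le_norm_inf (le_norm_commutator hV hZ) (le_norm_cent hH)

/-- the setting: an elementary abelian `r`-group acting on an abelian `r'`-group -/
structure CS (r : ℕ) (V Z : Subgroup G) : Prop where
  hr : r.Prime
  hV : IsMulCommutative V
  hZ : IsElementaryAbelian r Z
  nV : Z ≤ N[V]
  cop : (Nat.card V).Coprime (Nat.card Z)

namespace CS
variable (S : CS r V Z)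
include S

omit [Finite G] in
theorem vc_le : vc V Z H ≤ V := inf_le_left.trans (commutator_le_of_le_norm_left S.nV)

theorem fpf : ⁅V, Z⁆ ⊓ C[Z] = ⊥ := coprime_comm_commutator_inf_cent S.hV S.nV S.cop

omit [Finite G] in
theorem Z_cent (h : H ≤ Z) : Z ≤ C[H] := (PG.elemAb_le_cent S.hZ).trans (cent_anti h)

omit [Finite G] in
theorem n_vc (h : H ≤ Z) : Z ≤ N[vc V Z H] :=
  le_norm_vc S.nV (le_norm_self le_rfl) (le_norm_of_cent (S.Z_cent h))

theorem inf_cent_eq_bot (h : Comp r V Z H) (hD : D ≤ vc V Z H) (hY : Y ≤ Z) (hn : ¬ Y ≤ H) :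
    D ⊓ C[Y] = ⊥ := by
  rw [eq_bot_iff, ← S.fpf]
  nth_rewrite 2 [← PG.sup_eq_of_card_eq_mul S.hr h.le h.card hY hn]
  rw [cent_sup]
  exact le_inf (inf_le_left.trans (hD.trans inf_le_left))
    (inf_le_inf_right _ (hD.trans inf_le_right))

theorem le_of_cent (h : Comp r V Z H) (hD : D ≤ vc V Z H) (h1 : D ≠ ⊥) (hY : Y ≤ Z)
    (hc : Y ≤ C[D]) : Y ≤ H := by
  by_contra hn
  exact h1 (by rw [← S.inf_cent_eq_bot h hD hY hn, inf_eq_left.2 (le_cent_symm hc)])

theorem not_le_of_ne (h : Comp r V Z H) (h' : Comp r V Z K) (hne : K ≠ H) : ¬ K ≤ H := fun hle =>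
  hne (eq_of_le_of_card_ge hle
    (Nat.eq_of_mul_eq_mul_left S.hr.pos (h.card.symm.trans h'.card)).le)

theorem le_cent (hY : Y ≤ Z) (h : ∀ H, Comp r V Z H → Y ≤ H) : Y ≤ C[V] := by
  have h1 : ⁅V, Z⁆ ≤ V := commutator_le_of_le_norm_left S.nV
  rw [← coprime_commutator_sup_cent (.inl (solvable_of_comm S.hV)) S.nV S.cop, cent_sup]
  refine le_inf (le_cent_symm ?_) (le_cent_symm (inf_le_right.trans (cent_anti hY)))
  refine coprime_elemAb_gen_cent S.hr S.hZ (le_norm_commutator S.nV (le_norm_self le_rfl))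
    (coprime_card_of_le S.cop h1 le_rfl) fun H hH hd => ?_
  by_cases h0 : vc V Z H = ⊥
  · exact (show ⁅V, Z⁆ ⊓ C[H] = ⊥ from h0).le.trans bot_le
  refine inf_le_right.trans (cent_anti (h H ⟨hH, ?_, h0⟩))
  rw [← card_mul_relIndex hH, mul_comm r] at hd
  rcases (Nat.dvd_prime S.hr).1 (Nat.dvd_of_mul_dvd_mul_left (card_pos' H) hd) with e | e
  · refine absurd ?_ h0
    rw [le_antisymm hH (relIndex_eq_one.1 e)]
    exact S.fpf
  · exact PG.card_eq_mul_of_relIndex hH e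

theorem indep_aux (T : Finset (Subgroup G)) : (∀ H ∈ T, H ≤ Z) → ∀ X : Subgroup G, Z ≤ N[X] →
    X ≤ ⨆ H ∈ T, vc V Z H → (∀ H ∈ T, X ⊓ C[H] = ⊥) → X = ⊥ := by
  classical
  induction T using Finset.induction_on with
  | empty => intro _ X _ h _; simpa using h
  | insert H T hH ih =>
  intro hT X nX hX h
  rw [Finset.iSup_insert] at hX
  have hZ := hT H (Finset.mem_insert_self _ _)
  have nS : Z ≤ N[⨆ H ∈ T, vc V Z H] := le_norm_iSup fun K => le_norm_iSup fun hK =>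
    S.n_vc (hT K (Finset.mem_insert_of_mem hK))
  have hS : ⨆ H ∈ T, vc V Z H ≤ V := iSup₂_le fun _ _ => S.vc_le
  have h1 : ⁅X, H⁆ ≤ X := commutator_le_of_le_norm_left (hZ.trans nX)
  have h2 : ⁅X, H⁆ = ⊥ := by
    refine ih (fun K hK => hT K (Finset.mem_insert_of_mem hK)) _
      (le_norm_commutator nX (le_norm_of_cent (S.Z_cent hZ))) ?_ fun K hK => ?_
    · refine (commutator_mono hX le_rfl).trans ?_
      rw [sup_comm, commutator_sup_cent_eq (.inl (le_norm_of_cent (hS.trans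
        ((isMulCommutative_iff_le_cent.1 S.hV).trans (cent_anti S.vc_le))))) inf_le_right]
      exact commutator_le_of_le_norm_left (hZ.trans nS)
    · rw [eq_bot_iff, ← h K (Finset.mem_insert_of_mem hK)]
      exact inf_le_inf_right _ h1
  rw [← h H (Finset.mem_insert_self _ _), eq_comm, inf_eq_left]
  exact le_cent_iff_commutator_eq_bot.2 h2

theorem prod_le (Dc : Subgroup G → Subgroup G) (T : Finset (Subgroup G))
    (hT : ∀ H ∈ T, Comp r V Z H) (hD : ∀ H ∈ T, Dc H ≤ vc V Z H) (hW : ∀ H ∈ T, Dc H ≤ W) :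
    ∏ H ∈ T, Nat.card (Dc H) ≤ Nat.card W := by
  classical
  suffices h : ∏ H ∈ T, Nat.card (Dc H) = Nat.card ↥(⨆ H ∈ T, Dc H) from
    h ▸ card_le_of_le (iSup₂_le hW)
  clear hW
  induction T using Finset.induction_on with
  | empty => simp
  | insert H T hH ih =>
  have hT' : ∀ K ∈ T, Comp r V Z K := fun K hK => hT K (Finset.mem_insert_of_mem hK)
  have hD' : ∀ K ∈ T, Dc K ≤ vc V Z K := fun K hK => hD K (Finset.mem_insert_of_mem hK)
  have h0 := hT H (Finset.mem_insert_self _ _)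
  have d0 := hD H (Finset.mem_insert_self _ _)
  have hS : ⨆ H ∈ T, Dc H ≤ V := iSup₂_le fun K hK => (hD' K hK).trans S.vc_le
  rw [Finset.prod_insert hH, ih hT' hD', Finset.iSup_insert, card_sup_of_inf_eq_bot
    (.inl (le_norm_of_cent ((d0.trans S.vc_le).trans
      ((isMulCommutative_iff_le_cent.1 S.hV).trans (cent_anti hS)))))]
  rw [eq_bot_iff, ← S.indep_aux T (fun K hK => (hT' K hK).le) (vc V Z H ⊓ ⨆ H ∈ T, vc V Z H)
    (le_norm_inf (S.n_vc h0.le) (le_norm_iSup fun K => le_norm_iSup fun hK => S.n_vc (hT' K hK).le))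
    inf_le_right fun K hK => S.inf_cent_eq_bot h0 inf_le_left (hT' K hK).le
      (S.not_le_of_ne h0 (hT' K hK) fun e => hH (e ▸ hK))]
  exact inf_le_inf d0 (iSup₂_mono hD')

theorem mul_le (Dc : Subgroup G → Subgroup G) (hH : Comp r V Z H) (hK : Comp r V Z K) (hne : H ≠ K)
    (h1 : Dc H ≤ vc V Z H) (h2 : Dc K ≤ vc V Z K) (h3 : Dc H ≤ W) (h4 : Dc K ≤ W) :
    Nat.card (Dc H) * Nat.card (Dc K) ≤ Nat.card W := by
  classical
  rw [← Finset.prod_pair (f := fun H => Nat.card (Dc H)) hne]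
  refine S.prod_le Dc _ ?_ ?_ ?_ <;> simp [*]

theorem pow_ncard_le (Dc : Subgroup G → Subgroup G) (I : Set (Subgroup G)) {m : ℕ}
    (h : ∀ H ∈ I, Comp r V Z H ∧ Dc H ≤ vc V Z H ∧ Dc H ≤ W ∧ m ≤ Nat.card (Dc H)) :
    m ^ I.ncard ≤ Nat.card W := by
  have hI : I.Finite := Set.toFinite I
  rw [Set.ncard_eq_toFinset_card I hI]
  refine (Finset.pow_card_le_prod _ _ _ fun H hH => ?_).trans (S.prod_le Dc hI.toFinset
    (fun H hH => ?_) (fun H hH => ?_) fun H hH => ?_) <;> rw [Set.Finite.mem_toFinset] at hH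
  exacts [(h H hH).2.2.2, (h H hH).1, (h H hH).2.1, (h H hH).2.2.1]

end CS

end Cfsg.Agent.Sig
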