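import Cfsg.Agent.Sig.BL1

/-! An element of order `q ∈ {2, 3}` with small fixed point index: the abelian case. -/

set_option autoImplicit false
open Cfsg Subgroup Cfsg.Agent.GT Cfsg.Agent.BG
open scoped commutatorElement

namespace Cfsg.Agent.Sig
universe u
variable {G : Type u} [Group G] [Finite G] {p q r s : ℕ}
  {A B D H J K M R U V W X Y Z : Subgroup G} {x y : G}

/-- the minimal configuration -/
structure BS (p q r : ℕ) (A V R J : Subgroup G) (x : G) : Prop where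
  hp : p.Prime
  hp2 : p ≠ 2
  hq : q = 2 ∨ q = 3
  hpq : p ≠ q
  hr : r.Prime
  hrq : r ≠ q
  hpr : p ≠ r
  pA : IsPGroup p A
  eV : IsElementaryAbelian q V
  pJ : IsPGroup q J
  pR : IsPGroup r R
  AV : A ≤ N[V]
  AR : A ≤ N[R]
  AJ : A ≤ N[J]
  JR : J ≤ N[R]
  JV : J ≤ N[V]
  RV : R ≤ N[V]
  faith : R ⊓ C[V] = ⊥
  CA : R ⊓ C[A] ≤ ⁅R, R⁆
  hx : x ∈ J
  xq : x ^ q = 1
  ne : ¬ R ≤ C1[x]
  idx : (C1[x]).relIndex V ≤ q ^ 2

theorem coprime_of_pgroups (hp : p.Prime) (hq : q.Prime) (h : p ≠ q) (hX : IsPGroup p X)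
    (hY : IsPGroup q Y) : (Nat.card X).Coprime (Nat.card Y) := by
  have := Fact.mk hp
  have := Fact.mk hq
  exact IsPGroup.coprime_card_of_ne p q h X Y hX hY

theorem not_dvd_of_pgroup (hp : p.Prime) (hq : q.Prime) (h : q ≠ p) (hX : IsPGroup p X) :
    ¬ q ∣ Nat.card X := by
  have := Fact.mk hp
  obtain ⟨n, hn⟩ := PG.exists_card_eq_pow hX
  rw [hn]
  exact fun hd => h ((Nat.prime_dvd_prime_iff_eq hq hp).1 (hq.dvd_of_dvd_pow hd))

namespace BS
variable (S : BS p q r A V R J x)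
include S

local notation "R₀" => ⁅R, zpowers x⁆

omit [Finite G] in
theorem qp : q.Prime := by
  rcases S.hq with rfl | rfl
  exacts [Nat.prime_two, Nat.prime_three]

omit [Finite G] in
theorem xJ : zpowers x ≤ J := zpowers_le_of_mem S.hx

omit [Finite G] in
theorem xR : zpowers x ≤ N[R] := S.xJ.trans S.JR

omit [Finite G] in
theorem R0_le : R₀ ≤ R := commutator_le_of_le_norm_left S.xR

theorem pV : IsPGroup q V := isPGroup_of_elementary S.eV

theorem x1 : x ≠ 1 := fun h => S.ne (by rw [h, cent1_one]; exact le_top)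

theorem card_x : Nat.card (zpowers x) = q := PG.card_zpowers_eq_prime S.qp S.xq S.x1

theorem cRx : (Nat.card R).Coprime (Nat.card (zpowers x)) :=
  coprime_of_pgroups S.hr S.qp S.hrq S.pR (S.pJ.to_le S.xJ)

theorem cVR : (Nat.card V).Coprime (Nat.card R) :=
  coprime_of_pgroups S.qp S.hr S.hrq.symm S.pV S.pR

theorem solvR : Group.IsSolvable R := solvable_of_isPGroup S.hr S.pR

theorem R_eq : R₀ ⊔ (R ⊓ C1[x]) = R := by
  rw [← cent_zpowers]; exact coprime_commutator_sup_cent (.inl S.solvR) S.xR S.cRx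

theorem R0_not_le : ¬ R₀ ≤ C1[x] := fun h => S.ne (by
  rw [← S.R_eq]; exact sup_le h inf_le_right)

theorem endgame (Kf : Subgroup G → Subgroup G) (P : Subgroup G → Prop)
    (hP : ∀ a ∈ A, ∀ H, P H → P (cj[a] H)) (hK : ∀ a ∈ A, ∀ H, Kf (cj[a] H) = cj[a] (Kf H))
    (k1 : ⁅R, R⁆ ≤ Kf H) (k2 : Kf H ≤ R) (h1 : P H) (h2 : ¬ R₀ ≤ Kf H)
    (hS : ⁅R, A ⊓ N[H]⁆ ≤ Kf H)
    (hT : ∀ a ∈ A, a ∉ N[H] → ¬ R₀ ≤ Kf (cj[a] H) → R ⊓ C1[x] ≤ Kf H ∧
      R ⊓ C1[x] ≤ Kf (cj[a] H) ∧ ∀ H', P H' → ¬ R₀ ≤ Kf H' → H' = H ∨ H' = cj[a] H) : False := by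
  have NL : ∀ g ∈ R₀, (∀ a ∈ A, a ∉ N[H] → g ∈ Kf (cj[a] H)) → g ∈ Kf H := fun g hg h => by
    refine norm_stab' S.solvR S.AR (coprime_of_pgroups S.hr S.hp S.hpr.symm S.pR S.pA)
      (S.CA.trans k1) k1 k2 (S.R0_le hg) hS fun a ha hn => ?_
    have := h a⁻¹ (inv_mem ha) fun h => hn (inv_mem_iff.1 h)
    rwa [hK _ (inv_mem ha), mem_conj, inv_inv] at this
  by_cases h3 : ∃ a ∈ A, a ∉ N[H] ∧ ¬ R₀ ≤ Kf (cj[a] H)
  swap
  · push Not at h3
    exact h2 fun g hg => NL g hg fun a ha hn => h3 a ha hn hg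
  obtain ⟨a, ha, hn, h4⟩ := h3
  obtain ⟨c1, c2, hI⟩ := hT a ha hn h4
  have h5 : R₀ ⊓ Kf (cj[a] H) ≤ Kf H := fun g hg => NL g hg.1 fun b hb hbn => by
    by_cases h : R₀ ≤ Kf (cj[b] H)
    · exact h hg.1
    rcases hI _ (hP b hb H h1) h with e | e
    · exact absurd (conj_eq_self_iff.1 e) hbn
    · rw [e]; exact hg.2
  have h6 : Kf (cj[a] H) ≤ Kf H := by
    have k3 : Kf (cj[a] H) ≤ R := by
      rw [hK a ha]; exact (conj_mono a k2).trans (conj_eq_self (S.AR ha)).le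
    rw [← inf_eq_right.2 k3, ← S.R_eq, dedekind' (.inr (le_norm_commutator (le_norm_self inf_le_left)
      (le_norm_of_cent (by rw [cent_zpowers]; exact inf_le_right)))) c2]
    exact sup_le h5 c1
  rw [hK a ha] at h6
  have h7 := conj_eq_self (mem_normalizer_of_conj_le h6)
  have := Fact.mk S.hp
  rcases hI (cj[a * a] H) (hP _ (mul_mem ha ha) H h1)
    (by rw [hK _ (mul_mem ha ha), mul_conj, h7, h7]; exact h2) with e | e
  · refine hn (PG.mem_of_sq_mem_of_odd ?_ (conj_eq_self_iff.1 e))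
    exact Odd.of_dvd_nat (PG.odd_card_of_isPGroup S.hp2 S.pA) (orderOf_dvd_card_of_mem ha)
  · rw [mul_conj, conj_inj] at e
    exact hn (conj_eq_self_iff.1 e)

theorem card_pow (hW : W ≤ V) : ∃ n, Nat.card W = q ^ n :=
  have := Fact.mk S.qp
  PG.exists_card_eq_pow (S.pV.to_le hW)

theorem wiel (hR : IsMulCommutative R) (hW : W ≤ V) (n1 : R₀ ≤ N[W]) (n2 : zpowers x ≤ N[W])
    (h : W ⊓ C[R₀] = ⊥) : ∃ c, Nat.card W = c ^ q ∧ Nat.card W ≤ q ^ 2 * c := by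
  have h1 := (wielandt_elem S.qp (PG.elemAb_of_le S.eV hW)
    (le_norm_commutator S.xR (le_norm_self le_rfl))
    (semiregular_of_prime (S.card_x ▸ S.qp) (coprime_comm_commutator_inf_cent hR S.xR S.cRx))
    (sup_le n1 n2) (not_dvd_of_pgroup S.hr S.qp S.hrq.symm (S.pR.to_le S.R0_le))).1
  rw [cent_sup, ← inf_assoc, h, bot_inf_eq, card_bot, one_pow, one_mul, mul_one, S.card_x] at h1
  refine ⟨_, h1, ?_⟩
  rw [← card_inf_mul_relIndex C[zpowers x] W, mul_comm, inf_comm, cent_zpowers]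
  exact Nat.mul_le_mul_right _ ((relIndex_mono_right hW).trans S.idx)

theorem wiel_le (hR : IsMulCommutative R) (hW : W ≤ V) (n1 : R₀ ≤ N[W]) (n2 : zpowers x ≤ N[W])
    (h : W ⊓ C[R₀] = ⊥) : Nat.card W ≤ if q = 2 then 16 else 27 := by
  obtain ⟨c, h1, h2⟩ := S.wiel hR hW n1 n2 h
  rw [h1] at h2 ⊢
  rcases S.hq with rfl | rfl
  · have : c ≤ 4 := by nlinarith
    simpa using Nat.pow_le_pow_left this 2
  · have : c ≤ 3 := by
      by_contra hc
      have h3 : 4 ≤ c := by omega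
      have h4 : 4 * 4 * c ≤ c * c * c := Nat.mul_le_mul_right _ (Nat.mul_le_mul h3 h3)
      have h5 : c ^ 3 = c * c * c := by ring
      omega
    simpa using Nat.pow_le_pow_left this 3

section Ab
variable (hR : IsElementaryAbelian r R)
include hR

theorem cs : CS r V R := ⟨S.hr, S.eV.1, hR, S.RV, S.cVR⟩

omit hR [Finite G] in
theorem nW0 : R ⊔ zpowers x ≤ N[⁅V, R₀⁆] :=
  le_norm_commutator (sup_le S.RV (S.xJ.trans S.JV))
    (sup_le (normalizer_commutator_ge_left _ _) (normalizer_commutator_ge_right _ _))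

omit hR [Finite G] in
theorem W0_le : ⁅V, R₀⁆ ≤ V := commutator_le_of_le_norm_left (S.R0_le.trans S.RV)

theorem card_W0 : Nat.card ↥⁅V, R₀⁆ ≤ if q = 2 then 16 else 27 :=
  S.wiel_le hR.1 S.W0_le ((S.R0_le.trans le_sup_left).trans S.nW0) (le_sup_right.trans S.nW0)
    (coprime_comm_commutator_inf_cent S.eV.1 (S.R0_le.trans S.RV)
      (coprime_card_of_le S.cVR le_rfl S.R0_le))

theorem vc_le_W0 (h : Comp r V R H) (h0 : ¬ R₀ ≤ H) : vc V R H ≤ ⁅V, R₀⁆ := by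
  have C := S.cs hR
  rw [← coprime_commutator_sup_cent (.inl (solvable_of_comm (isMulCommutative_of_le S.eV.1 C.vc_le)))
    (S.R0_le.trans (C.n_vc h.le)) (coprime_card_of_le S.cVR C.vc_le S.R0_le),
    C.inf_cent_eq_bot h le_rfl S.R0_le h0, sup_bot_eq]
  exact commutator_mono C.vc_le le_rfl

theorem card_vc (h : Comp r V R H) :
    ∃ n, 1 ≤ n ∧ Nat.card (vc V R H) = q ^ n ∧ r ∣ q ^ n - 1 := by
  have C := S.cs hR
  obtain ⟨n, hn⟩ := S.card_pow (C.vc_le (H := H))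
  refine ⟨n, Nat.pos_of_ne_zero ?_, hn, hn ▸ modEq_one_of_fpf S.hr S.pR (C.n_vc h.le) ?_⟩
  · rintro rfl
    exact h.ne (card_eq_one.1 hn)
  · rw [eq_bot_iff, ← C.fpf]
    exact inf_le_inf_right _ inf_le_left

theorem le_card_vc (h : Comp r V R H) : (if q = 2 then 4 else 3) ≤ Nat.card (vc V R H) := by
  obtain ⟨n, h1, h2, h3⟩ := S.card_vc hR h
  rw [h2]
  rcases S.hq with rfl | rfl
  · have : n ≠ 1 := by
      rintro rfl
      exact S.hr.ne_one (by simpa using h3)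
    simpa using Nat.pow_le_pow_right two_pos (show 2 ≤ n by omega)
  · simpa using Nat.pow_le_pow_right three_pos h1

theorem ncard_le : {H | Comp r V R H ∧ ¬ R₀ ≤ H}.ncard ≤ q := by
  have h := ((S.cs hR).pow_ncard_le (vc V R) {H | Comp r V R H ∧ ¬ R₀ ≤ H} fun H hH =>
    ⟨hH.1, le_rfl, S.vc_le_W0 hR hH.1 hH.2, S.le_card_vc hR hH.1⟩).trans (S.card_W0 hR)
  by_contra hc
  rcases S.hq with rfl | rfl
  · have := (Nat.pow_le_pow_right (show 0 < 4 by norm_num) (not_le.1 hc)).trans h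
    simp at this
  · have := (Nat.pow_le_pow_right (show 0 < 3 by norm_num) (not_le.1 hc)).trans h
    simp at this

theorem card_vc_fixed (h : Comp r V R H) (h0 : ¬ R₀ ≤ H) (hx : x ∈ N[H]) :
    ∃ c, Nat.card (vc V R H) = c ^ q := by
  have C := S.cs hR
  obtain ⟨c, hc, -⟩ := S.wiel hR.1 C.vc_le (S.R0_le.trans (C.n_vc h.le))
    (le_norm_vc (S.xJ.trans S.JV) S.xR (zpowers_le_of_mem hx))
    (C.inf_cent_eq_bot h le_rfl S.R0_le h0)
  exact ⟨c, hc⟩

omit hR [Finite G] in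
theorem conj_mem_I {g : G} (hg : g ∈ J) (hX : g ∈ N[X]) (h : Comp r V R H) (h0 : ¬ ⁅R, X⁆ ≤ H) :
    Comp r V R (cj[g] H) ∧ ¬ ⁅R, X⁆ ≤ cj[g] H :=
  ⟨h.conj (S.JV hg) (S.JR hg), by
    rwa [← conj_eq_self (le_norm_commutator (A := zpowers g) (zpowers_le_of_mem (S.JR hg))
      (zpowers_le_of_mem hX) (mem_zpowers g)), conj_le_conj_iff]⟩

theorem not_dvd_sub (h : Comp r V R H) (h0 : ¬ R₀ ≤ H) : ¬ p ∣ r - 1 := by
  have C := S.cs hR
  obtain ⟨n, h1, h2, h3⟩ := S.card_vc hR h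
  have h4 := (card_le_of_le (S.vc_le_W0 hR h h0)).trans (S.card_W0 hR)
  have hp := S.hp
  have hr := S.hr
  have hp2 := S.hp2
  have hpq := S.hpq
  have pd : ∀ {a k : ℕ}, a.Prime → p ∣ a ^ k → p = a := fun ha h =>
    (Nat.prime_dvd_prime_iff_eq hp ha).1 (hp.dvd_of_dvd_pow h)
  have rd : ∀ {a k : ℕ}, a.Prime → r ∣ a ^ k → r = a := fun ha h =>
    (Nat.prime_dvd_prime_iff_eq hr ha).1 (hr.dvd_of_dvd_pow h)
  intro hd
  rw [h2] at h4
  rcases S.hq with rfl | rfl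
  · have h5 : n ≤ 4 := (Nat.pow_le_pow_iff_right one_lt_two).1 (by simpa using h4)
    interval_cases n
    · exact hr.ne_one (by simpa using h3)
    · obtain rfl := rd (k := 1) Nat.prime_three h3
      exact hp2 (pd (k := 1) Nat.prime_two hd)
    · by_cases hx : x ∈ N[H]
      · obtain ⟨c, hc⟩ := S.card_vc_fixed hR h h0 hx
        rw [h2] at hc
        have : c ≤ 3 := by nlinarith
        interval_cases c <;> simp at hc
      · obtain ⟨k1, k2⟩ := S.conj_mem_I S.hx (le_norm_self le_rfl (mem_zpowers x)) h h0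
        have h6 := (C.mul_le (vc V R) h k1 (fun e => hx (conj_eq_self_iff.1 e.symm)) le_rfl le_rfl
          (S.vc_le_W0 hR h h0) (S.vc_le_W0 hR k1 k2)).trans (S.card_W0 hR)
        rw [← conj_vc (S.JV S.hx) (S.JR S.hx), card_conj, h2] at h6
        simp at h6
    · rcases (Nat.Prime.dvd_mul hr (m := 3) (n := 5)).1 h3 with h | h
      · obtain rfl := rd (k := 1) Nat.prime_three h
        exact hp2 (pd (k := 1) Nat.prime_two hd)
      · obtain rfl := rd (k := 1) Nat.prime_five h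
        exact hp2 (pd (k := 2) Nat.prime_two hd)
  · have h5 : n ≤ 3 := (Nat.pow_le_pow_iff_right (show 1 < 3 by norm_num)).1 (by simpa using h4)
    have h6 : r = 2 ∨ r = 13 := by
      interval_cases n
      · exact .inl (rd (k := 1) Nat.prime_two h3)
      · exact .inl (rd (k := 3) Nat.prime_two h3)
      · exact ((Nat.Prime.dvd_mul hr (m := 2) (n := 13)).1 h3).imp (rd (k := 1) Nat.prime_two)
          (rd (k := 1) (by norm_num))
    rcases h6 with rfl | rfl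
    · exact hp.ne_one (by simpa using hd)
    · rcases (Nat.Prime.dvd_mul hp (m := 4) (n := 3)).1 hd with h | h
      · exact hp2 (pd (k := 2) Nat.prime_two h)
      · exact hpq (pd (k := 1) Nat.prime_three h)

theorem stab_cent (h : Comp r V R H) (h0 : ¬ R₀ ≤ H) : ⁅R, A ⊓ N[H]⁆ ≤ H := by
  by_contra hn
  obtain ⟨i, h1, h2, h3⟩ := exists_dvd_pow_sub_quo S.hp S.hr S.hpr (S.pA.to_le inf_le_left) S.pR
    (inf_le_left.trans S.AR) h.le (le_norm_of_cent ((S.cs hR).Z_cent h.le)) inf_le_right hn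
  rw [PG.relIndex_eq_of_card_eq_mul h.le h.card] at h2
  have h4 : i ≤ 1 := (Nat.pow_dvd_pow_iff_le_right S.hr.one_lt).1 (by simpa using h2)
  obtain rfl : i = 1 := le_antisymm h4 h1
  exact S.not_dvd_sub hR h h0 (by simpa using h3)

theorem cent_le_fixed (h : Comp r V R H) (h0 : ¬ R₀ ≤ H) (hx : x ∈ N[H]) : R ⊓ C1[x] ≤ H := by
  by_contra hn
  refine h0 ?_
  rw [← PG.sup_eq_of_card_eq_mul S.hr h.le h.card inf_le_left hn, commutator_sup_cent_eq
    (.inr (le_norm_of_cent (inf_le_left.trans ((S.cs hR).Z_cent h.le))))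
    (by rw [cent_zpowers]; exact inf_le_right)]
  exact commutator_le_of_le_norm_left (zpowers_le_of_mem hx)

theorem orbit_eq (h : Comp r V R H) (h0 : ¬ R₀ ≤ H) (hx : x ∉ N[H]) :
    {K | ∃ g ∈ zpowers x, K = cj[g] H} = {H | Comp r V R H ∧ ¬ R₀ ≤ H} := by
  refine Set.eq_of_subset_of_ncard_le ?_ ?_
  · rintro _ ⟨g, hg, rfl⟩
    exact S.conj_mem_I (S.xJ hg) (le_norm_self le_rfl hg) h h0
  · rw [ncard_conj_orbit, PG.relIndex_zpowers_eq_prime S.qp (S.xq ▸ one_mem _) hx]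
    exact S.ncard_le hR

theorem moved {a : G} (ha : a ∈ A) (h : Comp r V R H) (h0 : ¬ R₀ ≤ H) (hn : a ∉ N[H])
    (h1 : ¬ R₀ ≤ cj[a] H) (hK : Comp r V R K) (k0 : ¬ R₀ ≤ K) (hx : x ∉ N[K]) : False := by
  have := Fact.mk S.qp
  have := Fact.mk S.hp
  obtain ⟨I, hI⟩ : ∃ I, I = {H | Comp r V R H ∧ ¬ R₀ ≤ H} := ⟨_, rfl⟩
  have orb : ∀ L ∈ I, {K | ∃ g ∈ zpowers x, K = cj[g] L} = I := fun L hL => by
    rw [hI] at hL ⊢
    refine S.orbit_eq hR hL.1 hL.2 fun hc => hx ?_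
    obtain ⟨g, hg, rfl⟩ := (S.orbit_eq hR hK k0 hx).ge hL
    have := conj_eq_self (inv_mem (zpowers_le_of_mem hc hg))
    rw [inv_conj_conj] at this
    rwa [this]
  have nI : I.ncard ≤ q := hI ▸ S.ncard_le hR
  have h2 : Comp r V R (cj[a] H) := h.conj (S.AV ha) (S.AR ha)
  have m1 : H ∈ I := hI ▸ ⟨h, h0⟩
  have m2 : cj[a] H ∈ I := hI ▸ ⟨h2, h1⟩
  have nI' : I.ncard = q := by
    rw [← orb K (hI ▸ ⟨hK, k0⟩), ncard_conj_orbit,
      PG.relIndex_zpowers_eq_prime S.qp (S.xq ▸ one_mem _) hx]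
  have hX : zpowers x ⊔ cj[a] (zpowers x) ≤ J :=
    sup_le S.xJ ((conj_mono a S.xJ).trans (conj_eq_self (S.AJ ha)).le)
  obtain ⟨O, hO⟩ : ∃ O, O = {K | ∃ g ∈ zpowers x ⊔ cj[a] (zpowers x), K = cj[g] (cj[a] H)} :=
    ⟨_, rfl⟩
  have s1 : I ⊆ O := by
    rw [← orb _ m2, hO]
    rintro _ ⟨g, hg, rfl⟩
    exact ⟨g, mem_sup_left hg, rfl⟩
  have s2 : O ⊆ I ∪ (fun L => cj[a] L) '' I := by
    rw [hO]
    rintro _ ⟨g, hg, rfl⟩
    obtain ⟨k1, k2⟩ := S.conj_mem_I (hX hg) (le_norm_self le_rfl hg) h2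
      fun h => h1 ((commutator_mono le_rfl le_sup_left).trans h)
    by_cases e : R₀ ≤ cj[g] (cj[a] H)
    swap
    · exact .inl (hI ▸ ⟨k1, e⟩)
    refine .inr ⟨cj[a⁻¹] (cj[g] (cj[a] H)), hI ▸ ⟨k1.conj (inv_mem (S.AV ha)) (inv_mem (S.AR ha)),
      fun e' => k2 ?_⟩, conj_inv_conj _ _⟩
    rw [← conj_le_iff, conj_commutator, conj_eq_self (S.AR ha)] at e'
    exact PG.commutator_sup_le' (le_norm_of_commutator_le_of_le k1.le e)
      (le_norm_of_commutator_le_of_le k1.le e') e e'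
  have c1 : O.ncard ≤ q := by
    have h3 := Set.ncard_le_ncard s2
    have h4 := Set.ncard_union_add_ncard_inter I ((fun L => cj[a] L) '' I)
    have h5 := Set.ncard_image_le (f := fun L => cj[a] L) (s := I)
    have h6 : 0 < (I ∩ (fun L => cj[a] L) '' I).ncard :=
      (Set.ncard_pos (Set.toFinite _)).2 ⟨_, m2, H, m1, rfl⟩
    obtain ⟨k, hk⟩ := PG.exists_relIndex_eq_pow (S.pJ.to_le hX) N[cj[a] H]
    rw [← ncard_conj_orbit, ← hO] at hk
    have h7 : q ^ k < q ^ 2 := by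
      have := S.qp.two_le
      nlinarith
    rw [hk]
    simpa using Nat.pow_le_pow_right S.qp.pos
      (Nat.lt_succ_iff.1 ((Nat.pow_lt_pow_iff_right S.qp.one_lt).1 h7))
  have e1 : I = O := Set.eq_of_subset_of_ncard_le s1 (nI' ▸ c1)
  have inv : ∀ L ∈ I, cj[a] L ∈ I := fun L hL => by
    rw [← orb H m1] at hL
    obtain ⟨g, hg, rfl⟩ := hL
    rw [e1, hO]
    refine ⟨a * g * a⁻¹, mem_sup_right (conj_mem_conj.2 hg), ?_⟩
    rw [← mul_conj, ← mul_conj, inv_mul_cancel_right]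
  have s3 : {K | ∃ g ∈ zpowers a, K = cj[g] H} ⊆ I := by
    rintro _ ⟨g, hg, rfl⟩
    obtain ⟨n, rfl⟩ := PG.exists_nat_pow_of_mem_zpowers hg
    clear hg
    induction n with
    | zero => rwa [pow_zero, one_conj]
    | succ n ih => rw [pow_succ', mul_conj]; exact inv _ ih
  have h3 := (Set.ncard_le_ncard s3).trans nI
  rw [ncard_conj_orbit] at h3
  have h4 := (Nat.le_of_dvd (relIndex_pos _ _) (PG.dvd_relIndex_of_not_le
    (S.pA.to_le (zpowers_le_of_mem ha)) fun h => hn (h (mem_zpowers a)))).trans h3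
  have := S.hp.two_le
  have := S.hp2
  have := S.hpq
  have := S.hq
  omega

theorem false_of_ab : False := by
  have C := S.cs hR
  obtain ⟨H, h, h0⟩ : ∃ H, Comp r V R H ∧ ¬ R₀ ≤ H := by
    by_contra hn
    push Not at hn
    refine S.R0_not_le (le_trans ?_ bot_le)
    rw [← S.faith]
    exact le_inf S.R0_le (C.le_cent S.R0_le hn)
  refine S.endgame id (Comp r V R) (fun a ha H h => h.conj (S.AV ha) (S.AR ha)) (fun _ _ _ => rfl)
    ((le_cent_iff_commutator_eq_bot.1 (PG.elemAb_le_cent hR)).le.trans bot_le) h.le h h0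
    (S.stab_cent hR h h0) fun a ha hn h1 => ?_
  have h2 : Comp r V R (cj[a] H) := h.conj (S.AV ha) (S.AR ha)
  have fx : ∀ K, Comp r V R K → ¬ R₀ ≤ K → x ∈ N[K] := fun K hK k0 => by
    by_contra hx
    exact S.moved hR ha h h0 hn h1 hK k0 hx
  have hne : H ≠ cj[a] H := fun e => hn (conj_eq_self_iff.1 e.symm)
  refine ⟨S.cent_le_fixed hR h h0 (fx _ h h0), S.cent_le_fixed hR h2 h1 (fx _ h2 h1),
    fun K hK k0 => ?_⟩
  rcases S.hq with rfl | rfl
  · have := Set.eq_of_subset_of_ncard_le (s := {H, cj[a] H})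
      (t := {H | Comp r V R H ∧ ¬ R₀ ≤ H}) (by
        rintro _ (rfl | rfl)
        exacts [⟨h, h0⟩, ⟨h2, h1⟩]) (by rw [Set.ncard_pair hne]; exact S.ncard_le hR)
    exact this.ge ⟨hK, k0⟩
  · exfalso
    have h3 := (C.mul_le (vc V R) h h2 hne le_rfl le_rfl (S.vc_le_W0 hR h h0)
      (S.vc_le_W0 hR h2 h1)).trans (S.card_W0 hR)
    obtain ⟨c, hc⟩ := S.card_vc_fixed hR h h0 (fx _ h h0)
    have h4 := S.le_card_vc hR h
    rw [← conj_vc (S.AV ha) (S.AR ha), card_conj, hc] at h3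
    rw [hc] at h4
    have h5 : 2 ≤ c := by
      by_contra h5
      have : c ≤ 1 := by omega
      interval_cases c <;> simp at h4
    have h6 := Nat.pow_le_pow_left h5 3
    have := Nat.mul_le_mul h6 h6
    simp at h3
    omega

end Ab

end BS

end Cfsg.Agent.Sig
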