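import Cfsg.Agent.Sig.BL2

/-! An element of order `q ∈ {2, 3}` with small fixed point index: the nonabelian case. -/

set_option autoImplicit false
open Cfsg Subgroup Cfsg.Agent.GT Cfsg.Agent.BG
open scoped commutatorElement

namespace Cfsg.Agent.Sig
universe u
variable {G : Type u} [Group G] {p q r s : ℕ}
  {A B D H J K M N R U V W X Y Z : Subgroup G} {x y : G}

/-- the elements normalizing `N` and commuting with the set `T` modulo `N` -/
def cmodS (N : Subgroup G) (T : Set G) : Subgroup G where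
  carrier := {g | g ∈ N[N] ∧ ∀ x ∈ T, ⁅g, x⁆ ∈ N}
  one_mem' := ⟨one_mem _, fun x _ => by simp⟩
  mul_mem' := by
    rintro g h ⟨g1, g2⟩ ⟨h1, h2⟩
    refine ⟨mul_mem g1 h1, fun x hx => ?_⟩
    have : ⁅g * h, x⁆ = g * ⁅h, x⁆ * g⁻¹ * ⁅g, x⁆ := by simp [commutatorElement_def, mul_assoc]
    rw [this]
    exact mul_mem (conj_mem_of_mem_norm g1 (h2 x hx)) (g2 x hx)
  inv_mem' := by
    rintro g ⟨g1, g2⟩
    refine ⟨inv_mem g1, fun x hx => ?_⟩
    have : ⁅g⁻¹, x⁆ = g⁻¹ * ⁅g, x⁆⁻¹ * g⁻¹⁻¹ := by simp [commutatorElement_def, mul_assoc]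
    rw [this]
    exact conj_mem_of_mem_norm (inv_mem g1) (inv_mem (g2 x hx))

theorem comm_closure_le {T : Set G} (h1 : ∀ x ∈ T, x ∈ N[N]) (h2 : ∀ x ∈ T, ∀ y ∈ T, ⁅x, y⁆ ∈ N) :
    ⁅closure T, closure T⁆ ≤ N :=
  PG.commutator_closure_le h1 fun x hx a ha => PG.commutator_mem_comm.1
    (((closure_le (cmodS N T)).2 (fun y hy => ⟨h1 y hy, h2 y hy⟩) ha).2 x hx)

theorem conj_centMod (g : G) : cj[g] (PG.centMod A K) = PG.centMod (cj[g] A) (cj[g] K) := by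
  ext y
  rw [mem_conj, PG.mem_centMod, PG.mem_centMod, ← conj_normalizer, mem_conj]
  refine and_congr_right fun _ => ⟨fun h a ha => ?_, fun h a ha => ?_⟩
  · rw [mem_conj] at ha ⊢
    convert h _ ha using 1
    simp [commutatorElement_def, mul_assoc]
  · have := h _ (conj_mem_conj.2 ha)
    rw [mem_conj] at this
    convert this using 1
    simp [commutatorElement_def, mul_assoc]

variable [Finite G]

theorem comm_zpowers_eq_closure (hx : x ∈ N[R]) :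
    ⁅R, zpowers x⁆ = closure {h | ∃ g ∈ R, h = ⁅g, x⁆} := by
  refine le_antisymm ?_ ((closure_le _).2 ?_)
  · rw [commutator_comm]
    refine PG.commutator_zpowers_le (mem_normalizer_of_conj_le ?_) fun g hg =>
      PG.commutator_mem_comm.1 (subset_closure ⟨g, hg, rfl⟩)
    rw [conj_le_iff, closure_le]
    rintro _ ⟨g, hg, rfl⟩
    rw [SetLike.mem_coe, mem_conj]
    exact subset_closure ⟨_, conj_mem_of_mem_norm hx hg, by simp [commutatorElement_def, mul_assoc]⟩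
  · rintro _ ⟨g, hg, rfl⟩
    exact commutator_mem_commutator hg (mem_zpowers x)

theorem gl_bound2 {n k : ℕ} (hn : n ≤ 6) (h : 3 ^ k ∣ ∏ i : Fin n, (2 ^ n - 2 ^ (i : ℕ))) : k ≤ 4 := by
  by_contra hk
  have := (pow_dvd_pow 3 (not_le.1 hk)).trans h
  revert this
  interval_cases n <;> decide

theorem gl_bound3 {n k : ℕ} (hn : n ≤ 4) (h : 2 ^ k ∣ ∏ i : Fin n, (3 ^ n - 3 ^ (i : ℕ))) : k ≤ 9 := by
  by_contra hk
  have := (pow_dvd_pow 2 (not_le.1 hk)).trans h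
  revert this
  interval_cases n <;> decide

theorem arith2 {i j : ℕ} (hp : p.Prime) (h2 : p ≠ 2) (i1 : 1 ≤ i) (i2 : i ≤ 6) (j1 : 1 ≤ j)
    (j2 : j ≤ 3) (hi : p ∣ 2 ^ i - 1) (hj : p ∣ 3 ^ j - 1) : False := by
  have h : p ∣ Nat.gcd (2 ^ i - 1) (3 ^ j - 1) := Nat.dvd_gcd hi hj
  have : Nat.gcd (2 ^ i - 1) (3 ^ j - 1) = 1 := by
    interval_cases i <;> interval_cases j <;> decide
  exact hp.ne_one (Nat.dvd_one.1 (this ▸ h))

theorem arith3 {i j : ℕ} (hp : p.Prime) (i1 : 1 ≤ i) (i2 : i ≤ 3) (j1 : 1 ≤ j)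
    (j2 : j ≤ 9) (hi : p ∣ 3 ^ i - 1) (hj : p ∣ 2 ^ j - 1) : False := by
  have h : p ∣ Nat.gcd (3 ^ i - 1) (2 ^ j - 1) := Nat.dvd_gcd hi hj
  have : Nat.gcd (3 ^ i - 1) (2 ^ j - 1) = 1 := by
    interval_cases i <;> interval_cases j <;> decide
  exact hp.ne_one (Nat.dvd_one.1 (this ▸ h))

/-- the nonabelian minimal configuration -/
structure BN (p q r : ℕ) (A V R J : Subgroup G) (x : G) : Prop extends BS p q r A V R J x where
  eZ : IsElementaryAbelian r ⁅R, R⁆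
  zR : ⁅R, R⁆ ≤ C[R]
  zJ : ⁅R, R⁆ ≤ C[J]
  cR : R ⊓ C[R] ≤ ⁅R, R⁆
  pw : ∀ g ∈ R, g ^ r ∈ ⁅R, R⁆

namespace BN
variable (S : BN p q r A V R J x)
include S

local notation "R₀" => ⁅R, zpowers x⁆
local notation "R'" => ⁅R, R⁆
local notation:max "𝐊" H:max => R ⊓ PG.centMod R H
local notation:max "𝐕" H:max => vc V ⁅R, R⁆ H
local notation:max "𝐃" H:max => ⁅vc V ⁅R, R⁆ H, zpowers x⁆

omit S [Finite G] in
theorem Z_le : R' ≤ R := commutator_le_of_le_norm_left (le_norm_self le_rfl)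

theorem cs : CS r V R' :=
  ⟨S.hr, S.eV.1, S.eZ, Z_le.trans S.RV, coprime_card_of_le S.cVR le_rfl Z_le⟩

omit [Finite G] in
theorem nH (h : H ≤ R') : R ⊔ J ≤ N[H] :=
  le_norm_of_cent (le_cent_symm (h.trans (by rw [cent_sup]; exact le_inf S.zR S.zJ)))

omit [Finite G] in
theorem nV (h : H ≤ R') : R ⊔ J ≤ N[𝐕 H] :=
  le_norm_vc (sup_le S.RV S.JV) (S.nH le_rfl) (S.nH h)

omit [Finite G] in
theorem le_K (h : H ≤ R') (hY : Y ≤ R) (hc : ⁅Y, R⁆ ≤ H) : Y ≤ 𝐊 H :=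
  le_inf hY (PG.le_centMod_iff.2 ⟨hY.trans (le_sup_left.trans (S.nH h)), hc⟩)

theorem cent_le_K (h : Comp r V R' H) : R ⊓ C[𝐕 H] ≤ 𝐊 H := by
  refine S.le_K h.le inf_le_left (S.cs.le_of_cent h le_rfl h.ne
    (commutator_mono inf_le_left le_rfl) ?_)
  rw [commutator_comm]
  exact commutator_le_cent_of_norm_of_cent (le_sup_left.trans (S.nV h.le)) inf_le_right

omit [Finite G] in
theorem D_le (h : H ≤ R') : 𝐃 H ≤ 𝐕 H :=
  commutator_le_of_le_norm_left (S.xJ.trans (le_sup_right.trans (S.nV h)))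

theorem not_cent (h : Comp r V R' H) (h0 : ¬ R₀ ≤ 𝐊 H) : ¬ zpowers x ≤ C[𝐕 H] := fun e =>
  h0 ((le_inf S.R0_le (commutator_le_cent_of_norm_of_cent (le_sup_left.trans (S.nV h.le)) e)).trans
    (S.cent_le_K h))

theorem D_ne (h : Comp r V R' H) (h0 : ¬ R₀ ≤ 𝐊 H) : 𝐃 H ≠ ⊥ := fun e =>
  S.not_cent h h0 (le_cent_iff_commutator_eq_bot'.2 e)

theorem card_D : Nat.card ↥⁅V, zpowers x⁆ ≤ q ^ 2 := by
  rw [card_comm_zpowers S.eV.1 (S.JV S.hx)]; exact S.idx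

theorem le_card_D (h : Comp r V R' H) (h0 : ¬ R₀ ≤ 𝐊 H) : q ≤ Nat.card ↥(𝐃 H) :=
  have := Fact.mk S.qp
  PG.p_le_card_of_ne_bot (S.pV.to_le ((S.D_le h.le).trans S.cs.vc_le)) (S.D_ne h h0)

omit [Finite G] in
theorem comm0 : ⁅R₀, R ⊓ C1[x]⁆ = ⊥ := by
  refine three_subgroups_bot (H := zpowers x) (K := R ⊓ C1[x]) (L := R) ?_ ?_
  · rw [(le_cent_iff_commutator_eq_bot' (A := R ⊓ C1[x]) (H := zpowers x)).1
      (by rw [cent_zpowers]; exact inf_le_right), commutator_bot_left]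
  · exact le_cent_iff_commutator_eq_bot.1
      ((commutator_mono inf_le_left le_rfl).trans (S.zJ.trans (cent_anti S.xJ)))

theorem cent_le_of_card (h : Comp r V R' H) (h0 : ¬ R₀ ≤ 𝐊 H) (hc : Nat.card ↥(𝐃 H) ≤ q) :
    R ⊓ C1[x] ≤ 𝐊 H := by
  have := Fact.mk S.qp
  have n : R ⊓ C1[x] ≤ N[𝐃 H] :=
    le_norm_commutator (inf_le_left.trans (le_sup_left.trans (S.nV h.le)))
      (le_norm_of_cent (by rw [cent_zpowers]; exact inf_le_right))
  have h1 : ⁅R ⊓ C1[x], R ⊓ C1[x]⁆ ≤ H := S.cs.le_of_cent h (S.D_le h.le) (S.D_ne h h0)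
    (commutator_mono inf_le_left inf_le_left) (PG.commutator_le_cent_of_isCyclic
      (PG.isCyclic_of_card_le_p (S.pV.to_le ((S.D_le h.le).trans S.cs.vc_le)) hc) n n)
  have nR := le_sup_left.trans (S.nH h.le)
  refine S.le_K h.le inf_le_left ?_
  nth_rewrite 2 [← S.R_eq]
  refine PG.commutator_sup_le' (S.R0_le.trans nR) (inf_le_left.trans nR) ?_ h1
  rw [commutator_comm, S.comm0]
  exact bot_le

theorem r_eq (h : Comp r V R' H) (h0 : ¬ R₀ ≤ 𝐊 H) : q = 2 ∧ r = 3 ∨ q = 3 ∧ r = 2 := by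
  have C := S.cs
  obtain ⟨n, hn⟩ := S.card_pow ((S.D_le h.le).trans C.vc_le)
  have h1 := S.le_card_D h h0
  have h2 := (card_le_of_le (commutator_mono (C.vc_le (H := H)) le_rfl)).trans S.card_D
  have h3 := modEq_one_of_fpf S.hr (S.pR.to_le Z_le) (le_norm_commutator (C.n_vc h.le)
    (le_norm_of_cent (S.zJ.trans (cent_anti S.xJ)))) (by
      rw [eq_bot_iff, ← C.fpf]
      exact inf_le_inf_right _ ((S.D_le h.le).trans inf_le_left))
  rw [hn] at h1 h2 h3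
  have h4 := (Nat.pow_le_pow_iff_right S.qp.one_lt).1 h2
  have rd : ∀ {a k : ℕ}, a.Prime → r ∣ a ^ k → r = a := fun ha h =>
    (Nat.prime_dvd_prime_iff_eq S.hr ha).1 (S.hr.dvd_of_dvd_pow h)
  rcases S.hq with rfl | rfl
  · interval_cases n
    · simp at h1
    · exact absurd (by simpa using h3) S.hr.ne_one
    · exact .inl ⟨rfl, rd (k := 1) Nat.prime_three h3⟩
  · interval_cases n
    · simp at h1
    · exact .inr ⟨rfl, rd (k := 1) Nat.prime_two h3⟩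
    · exact .inr ⟨rfl, rd (k := 3) Nat.prime_two h3⟩

omit [Finite G] in
theorem comm_mem {g : G} (hg : g ∈ R) : ⁅g, x⁆ ∈ R :=
  S.R0_le (commutator_mem_commutator hg (mem_zpowers x))

theorem exists_pair (h : H ≤ R') (h0 : ¬ R₀ ≤ 𝐊 H) :
    ∃ g ∈ R, ∃ k ∈ R, ⁅⁅g, x⁆, ⁅k, x⁆⁆ ∉ H := by
  by_contra hn
  push Not at hn
  have nR := le_sup_left.trans (S.nH h)
  refine h0 (S.le_K h S.R0_le ?_)
  nth_rewrite 2 [← S.R_eq]
  refine PG.commutator_sup_le' (S.R0_le.trans nR) (inf_le_left.trans nR) ?_ (S.comm0.le.trans bot_le)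
  rw [comm_zpowers_eq_closure (S.JR S.hx)]
  refine comm_closure_le ?_ ?_
  · rintro _ ⟨g, hg, rfl⟩
    exact nR (S.comm_mem hg)
  · rintro _ ⟨g, hg, rfl⟩ _ ⟨k, hk, rfl⟩
    exact hn g hg k hk

theorem idx_conj {g : G} (hg : g ∈ R) (hW : W ≤ V) : (C1[g * x * g⁻¹]).relIndex W ≤ q ^ 2 :=
  (relIndex_mono_right hW).trans ((relIndex_cent1_conj (S.RV hg)).le.trans S.idx)

omit S [Finite G] in
theorem cent_comm (g : G) : C1[x] ⊓ C1[g * x * g⁻¹] ≤ C1[⁅g, x⁆] := fun v hv =>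
  mem_cent1_comm.1 (mul_mem (mem_cent1_comm.1 hv.2) (inv_mem (mem_cent1_comm.1 hv.1)))

theorem card_V (h : Comp r V R' H) (h0 : ¬ R₀ ≤ 𝐊 H) :
    Nat.card (𝐕 H) ≤ q ^ if q = 2 then 6 else 4 := by
  have C := S.cs
  obtain ⟨g, hg, k, hk, hn⟩ := S.exists_pair h.le h0
  have key : ∀ z ∈ R', z ∉ H → ∀ X : Subgroup G, X ≤ C1[z] → Nat.card (𝐕 H) = X.relIndex (𝐕 H) :=
    fun z hz hzH X hX => card_le_of_inf_eq_bot (by
      rw [eq_bot_iff, ← C.inf_cent_eq_bot h le_rfl (zpowers_le_of_mem hz)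
        fun e => hzH (e (mem_zpowers z)), cent_zpowers]
      exact inf_le_inf_left _ hX)
  have i0 := (relIndex_mono_right (C.vc_le (H := H))).trans S.idx
  rcases S.r_eq h h0 with ⟨rfl, rfl⟩ | ⟨rfl, rfl⟩
  · rw [key _ (commutator_mem_commutator (S.comm_mem hg) (S.comm_mem hk)) hn
      (C1[x] ⊓ C1[g * x * g⁻¹] ⊓ C1[k * x * k⁻¹]) fun v hv => by
        have a := mem_cent1_comm.1 (cent_comm g hv.1)
        have b := mem_cent1_comm.1 (cent_comm k ⟨hv.1.1, hv.2⟩)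
        exact mem_cent1_comm.1 (mul_mem (mul_mem (mul_mem a b) (inv_mem a)) (inv_mem b))]
    exact (relIndex_inf_le.trans (Nat.mul_le_mul (relIndex_inf_le.trans
      (Nat.mul_le_mul i0 (S.idx_conj hg C.vc_le))) (S.idx_conj hk C.vc_le))).trans (by norm_num)
  · obtain ⟨l, hl, hl2⟩ : ∃ l ∈ R, ⁅l, x⁆ ^ 2 ∉ H := by
      by_contra hc
      push Not at hc
      have a := hc g hg
      have b := hc k hk
      have c := hc _ (mul_mem hg hk)
      have ma := S.comm_mem hg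
      have mb := S.comm_mem hk
      have e : ⁅g * k, x⁆ = ⁅g, ⁅k, x⁆⁆ * (⁅k, x⁆ * ⁅g, x⁆) := by
        simp [commutatorElement_def, mul_assoc]
      have mz := commutator_mem_commutator hg mb
      have cz : Commute ⁅g, ⁅k, x⁆⁆ (⁅k, x⁆ * ⁅g, x⁆) := (S.zR mz _ (mul_mem mb ma)).symm
      rw [e, cz.mul_pow, S.eZ.2 _ mz, one_mul] at c
      generalize ⁅g, x⁆ = u at *
      generalize ⁅k, x⁆ = w at *
      refine hn ?_
      have := conj_mem_of_mem_norm (le_sup_left.trans (S.nH h.le) mb)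
        (mul_mem (mul_mem (inv_mem b) c) (inv_mem a))
      convert this using 1
      simp only [commutatorElement_def, pow_two]
      group
    rw [key _ (S.pw _ (S.comm_mem hl)) hl2 (C1[x] ⊓ C1[l * x * l⁻¹])
      ((cent_comm l).trans (cent1_pow_ge _ _))]
    exact (relIndex_inf_le.trans (Nat.mul_le_mul i0 (S.idx_conj hl C.vc_le))).trans (by norm_num)

theorem stab_cent (h : Comp r V R' H) (h0 : ¬ R₀ ≤ 𝐊 H) : ⁅R, A ⊓ N[H]⁆ ≤ 𝐊 H := by
  have C := S.cs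
  have := Fact.mk S.qp
  have := Fact.mk S.hr
  by_contra hn
  have pA : IsPGroup p ↥(A ⊓ N[H]) := S.pA.to_le inf_le_left
  have nR := le_sup_left.trans (S.nH h.le)
  have aR : A ⊓ N[H] ≤ N[R] := inf_le_left.trans S.AR
  have aV : A ⊓ N[H] ≤ N[𝐕 H] :=
    le_norm_vc (inf_le_left.trans S.AV) (le_norm_commutator aR aR) inf_le_right
  have rV := le_sup_left.trans (S.nV h.le)
  obtain ⟨j, j1, j2, j3⟩ := exists_dvd_pow_sub_quo S.hp S.hr S.hpr pA S.pR aR inf_le_left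
    (le_norm_inf (le_norm_self le_rfl) (PG.le_norm_centMod (le_norm_self le_rfl) nR))
    (le_norm_inf aR (PG.le_norm_centMod aR inf_le_right)) hn
  have pV : IsPGroup q (𝐕 H) := S.pV.to_le C.vc_le
  have nc : ¬ 𝐕 H ≤ C[A ⊓ N[H]] := fun e => hn ((le_inf (commutator_le_of_le_norm_left aR)
    (commutator_le_cent_of_norm_of_cent rV (le_cent_symm e))).trans (S.cent_le_K h))
  obtain ⟨i, i1, i2, i3⟩ := exists_dvd_pow_sub S.hp S.qp S.hpq pA pV aV nc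
  obtain ⟨n, hn⟩ := PG.exists_card_eq_pow pV
  have n1 := S.card_V h h0
  rw [hn, Nat.pow_le_pow_iff_right S.qp.one_lt] at n1
  have gl := PG.relIndex_cent_dvd_card_GL (PG.elemAb_of_le S.eV C.vc_le) hn rV
  have lt : R ⊓ C[𝐕 H] < 𝐊 H := lt_of_le_of_ne (S.cent_le_K h) fun e => by
    have h1 : R' ≤ H := C.le_of_cent h le_rfl h.ne le_rfl ((S.le_K h.le Z_le
      ((le_cent_iff_commutator_eq_bot.1 S.zR).le.trans bot_le)).trans (e.ge.trans inf_le_right))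
    exact (PG.lt_of_card_eq_mul S.hr h.le h.card).not_ge h1
  have gl2 : r ^ (j + 1) ∣ ∏ i : Fin n, (q ^ n - q ^ (i : ℕ)) := by
    refine Dvd.dvd.trans ?_ gl
    rw [← inf_relIndex_left, ← relIndex_mul_relIndex _ _ _ lt.le inf_le_left, pow_succ']
    exact mul_dvd_mul (PG.dvd_relIndex_of_not_le (S.pR.to_le inf_le_left) lt.not_ge) j2
  have pos : ∀ X : Subgroup G, ∀ {a b : ℕ}, q ^ a * Nat.card X ≤ q ^ b → a ≤ b := fun X a b h =>
    (Nat.pow_le_pow_iff_right S.qp.one_lt).1 ((Nat.le_mul_of_pos_right _ (card_pos' X)).trans h)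
  rcases S.r_eq h h0 with ⟨rfl, rfl⟩ | ⟨rfl, rfl⟩
  · have := gl_bound2 n1 gl2
    exact arith2 S.hp S.hp2 i1 ((pos _ (i2.trans hn).le).trans n1) j1 (by omega) i3 j3
  · have j4 := gl_bound3 n1 gl2
    have jV := le_sup_right.trans (S.nV h.le)
    have y1 : 𝐕 H ⊓ C[J] ≠ ⊥ := PG.inf_cent_ne_bot S.pJ pV jV h.ne
    have y2 : 𝐕 H ⊓ C[J] < 𝐕 H := lt_of_le_of_ne inf_le_left fun e =>
      S.not_cent h h0 (S.xJ.trans (le_cent_symm (e.ge.trans inf_le_right)))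
    have n2 : n ≤ 4 := n1
    by_cases hc : 𝐕 H ⊓ C[J] ≤ C[A ⊓ N[H]]
    · refine arith3 S.hp i1 ?_ j1 (by omega) i3 j3
      have h1 := (PG.p_le_card_of_ne_bot (pV.to_le inf_le_left) y1).trans
        (card_le_of_le (le_inf inf_le_left hc))
      have h2 : 3 ^ (i + 1) ≤ 3 ^ n := by
        rw [← hn, ← i2, pow_succ]; exact Nat.mul_le_mul_left _ h1
      have := (Nat.pow_le_pow_iff_right S.qp.one_lt).1 h2
      omega
    · obtain ⟨k, k1, k2, k3⟩ := exists_dvd_pow_sub S.hp S.qp S.hpq pA (pV.to_le inf_le_left)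
        (le_norm_inf aV (le_norm_cent (inf_le_left.trans S.AJ))) hc
      refine arith3 S.hp k1 ?_ j1 (by omega) k3 j3
      have h1 := PG.mul_card_le_card_of_lt pV y2
      rw [← k2, hn, ← mul_assoc, ← pow_succ'] at h1
      have := pos _ h1
      omega

theorem false : False := by
  have C := S.cs
  obtain ⟨H, h, h0⟩ : ∃ H, Comp r V R' H ∧ ¬ R₀ ≤ 𝐊 H := by
    by_contra hn
    push Not at hn
    have h1 : ⁅R₀, R⁆ ≤ R' := commutator_mono S.R0_le le_rfl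
    have h2 : ⁅R₀, R⁆ = ⊥ := by
      rw [eq_bot_iff, ← S.faith]
      exact le_inf (h1.trans Z_le) (C.le_cent h1 fun H hH =>
        (PG.le_centMod_iff.1 ((hn H hH).trans inf_le_right)).2)
    refine S.R0_not_le ?_
    rw [← cent_zpowers]
    exact ((le_inf S.R0_le (le_cent_iff_commutator_eq_bot.2 h2)).trans S.cR).trans
      (S.zJ.trans (cent_anti S.xJ))
  have aZ : A ≤ N[R'] := le_norm_commutator S.AR S.AR
  refine S.endgame (fun H => 𝐊 H) (Comp r V R') (fun a ha H h => h.conj (S.AV ha) (aZ ha))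
    (fun a ha H => by rw [conj_inf, conj_centMod, conj_eq_self (S.AR ha)])
    (S.le_K h.le Z_le ((le_cent_iff_commutator_eq_bot.1 S.zR).le.trans bot_le)) inf_le_left h h0
    (S.stab_cent h h0) fun a ha hn h1 => ?_
  have h2 : Comp r V R' (cj[a] H) := h.conj (S.AV ha) (aZ ha)
  have hne : H ≠ cj[a] H := fun e => hn (conj_eq_self_iff.1 e.symm)
  have h3 := (C.mul_le (fun H => 𝐃 H) h h2 hne (S.D_le h.le) (S.D_le h2.le)
    (commutator_mono C.vc_le le_rfl) (commutator_mono C.vc_le le_rfl)).trans S.card_D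
  have d1 := S.le_card_D h h0
  have d2 := S.le_card_D h2 h1
  have hq := S.qp.pos
  refine ⟨S.cent_le_of_card h h0 (by nlinarith), S.cent_le_of_card h2 h1 (by nlinarith),
    fun K hK k0 => ?_⟩
  have h4 := (C.pow_ncard_le (fun H => 𝐃 H) {H | Comp r V R' H ∧ ¬ R₀ ≤ 𝐊 H} fun H hH =>
    ⟨hH.1, S.D_le hH.1.le, commutator_mono C.vc_le le_rfl, S.le_card_D hH.1 hH.2⟩).trans S.card_D
  have := Set.eq_of_subset_of_ncard_le (s := {H, cj[a] H})
    (t := {H | Comp r V R' H ∧ ¬ R₀ ≤ 𝐊 H}) (by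
      rintro _ (rfl | rfl)
      exacts [⟨h, h0⟩, ⟨h2, h1⟩]) (by
      rw [Set.ncard_pair hne]; exact (Nat.pow_le_pow_iff_right S.qp.one_lt).1 h4)
  exact this.ge ⟨hK, k0⟩

end BN

theorem coprime_of_not_dvd (hq : q.Prime) (hX : ¬ q ∣ Nat.card X) (hY : IsPGroup q Y) :
    (Nat.card X).Coprime (Nat.card Y) :=
  have := Fact.mk hq
  PG.coprime_card_of_coprime hY (Nat.coprime_comm.1 (hq.coprime_iff_not_dvd.2 hX))

/-- elements of order `q ∈ {2, 3}` in a `q`-group `J` centralized by `C_R(A)` have large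
fixed point index -/
theorem BL (hp : p.Prime) (hp2 : p ≠ 2) (hq : q = 2 ∨ q = 3) (hpq : p ≠ q) (hA : IsPGroup p A)
    (hV : IsElementaryAbelian q V) (hJ : IsPGroup q J) (hRs : Group.IsSolvable R)
    (hRq : ¬ q ∣ Nat.card R) (hRp : ¬ p ∣ Nat.card R) (hAV : A ≤ N[V]) (hAR : A ≤ N[R])
    (hAJ : A ≤ N[J]) (hJR : J ≤ N[R]) (hJV : J ≤ N[V]) (hRV : R ≤ N[V]) (hf : R ⊓ C[V] = ⊥)
    (hC : R ⊓ C[A] ≤ C[J]) (hx : x ∈ J) (hxq : x ^ q = 1) (hne : ¬ R ≤ C1[x]) :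
    q ^ 3 ≤ (C1[x]).relIndex V := by
  have qp : q.Prime := by
    rcases hq with rfl | rfl
    exacts [Nat.prime_two, Nat.prime_three]
  have := Fact.mk qp
  by_contra hlt
  have idx : (C1[x]).relIndex V ≤ q ^ 2 := by
    obtain ⟨n, hn⟩ := PG.exists_relIndex_eq_pow (isPGroup_of_elementary hV) C1[x]
    rw [hn, Nat.pow_le_pow_iff_right qp.one_lt] at hlt ⊢
    omega
  obtain ⟨J₀, hJ₀⟩ : ∃ J₀, J₀ = sSup {X | ∃ a ∈ A, X = cj[a] (zpowers x)} := ⟨_, rfl⟩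
  have j1 : J₀ ≤ J := hJ₀ ▸ sSup_le (by
    rintro _ ⟨a, ha, rfl⟩
    exact (conj_mono a (zpowers_le_of_mem hx)).trans (conj_eq_self (hAJ ha)).le)
  have j2 : A ≤ N[J₀] := hJ₀ ▸ le_norm_sSup_of_conj_mem (by
    rintro a ha _ ⟨b, hb, rfl⟩
    exact ⟨a * b, mul_mem ha hb, (mul_conj _ _ _).symm⟩)
  have j3 : x ∈ J₀ := hJ₀ ▸ le_sSup (s := {X | ∃ a ∈ A, X = cj[a] (zpowers x)})
    ⟨1, one_mem _, (one_conj _).symm⟩ (mem_zpowers x)
  have j4 : ∀ X : Subgroup G, A ≤ N[X] → X ≤ C1[x] → X ≤ C[J₀] := fun X h1 h2 => le_cent_symm (by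
    rw [hJ₀]
    refine sSup_le ?_
    rintro _ ⟨a, ha, rfl⟩
    rw [← conj_eq_self (h1 ha), conj_le_cent_conj_iff]
    exact le_cent_symm (by rwa [cent_zpowers]))
  obtain ⟨K, ⟨k1, k2, k3⟩, -, hmin⟩ := exists_minimal_le
    (S := {K | K ≤ R ∧ J₀ ⊔ A ≤ N[K] ∧ ¬ K ≤ C[J₀]})
    ⟨le_rfl, sup_le (j1.trans hJR) hAR, fun h => hne (h.trans (cent_le_cent1 j3))⟩
  have hmin' : ∀ X, X < K → J₀ ⊔ A ≤ N[X] → X ≤ C[J₀] := fun X h1 h2 => by
    by_contra h3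
    exact h1.ne (hmin X ⟨h1.le.trans k1, h2, h3⟩ h1.le)
  have pJ : IsPGroup q J₀ := hJ.to_le j1
  have kq : ¬ q ∣ Nat.card K := fun h => hRq (h.trans (card_dvd_of_le k1))
  have kp : ¬ p ∣ Nat.card K := fun h => hRp (h.trans (card_dvd_of_le k1))
  obtain ⟨r, hr, pK⟩ := exists_isPGroup_of_min_action (.inl (solv_of_le hRs k1)) k2
    (Nat.Coprime.coprime_dvd_right (card_sup_dvd (.inr j2))
      ((coprime_of_not_dvd qp kq pJ).mul_right (coprime_of_not_dvd hp kp hA))) hmin' k3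
  have := Fact.mk hr
  have rK : r ∣ Nat.card K := PG.dvd_card_of_ne_bot pK fun h => k3 (h ▸ bot_le)
  have rq : r ≠ q := fun h => kq (h ▸ rK)
  obtain ⟨-, s2, s3, s4, s5, -⟩ := special_of_min_action hr pK k2 (le_sup_left.trans k2)
    (sup_le (le_norm_self le_rfl) j2) (PG.coprime_card_of_coprime pJ
      ((Nat.coprime_primes hr qp).2 rq)).symm hmin' k3
  have S : BS p q r A V K J₀ x :=
    ⟨hp, hp2, hq, hpq, hr, rq, fun h => kp (h ▸ rK), hA, hV, pJ, pK, hAV, le_sup_right.trans k2, j2,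
      le_sup_left.trans k2, j1.trans hJV, k1.trans hRV,
      by rw [eq_bot_iff, ← hf]; exact inf_le_inf_right _ k1,
      s2 ▸ le_inf inf_le_left (((inf_le_inf_right _ k1).trans hC).trans (cent_anti j1)), j3, hxq,
      fun h => k3 (j4 _ (le_sup_right.trans k2) h), idx⟩
  have pw : ∀ g ∈ K, g ^ r ∈ ⁅K, K⁆ := fun g hg => s3 ▸ PG.pow_mem_phi pK hg
  by_cases hab : IsMulCommutative K
  · refine S.false_of_ab ⟨hab, fun g hg => ?_⟩
    have := pw g hg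
    rwa [le_cent_iff_commutator_eq_bot.1 (isMulCommutative_iff_le_cent.1 hab), mem_bot] at this
  have zK : ⁅K, K⁆ ≤ K := BN.Z_le
  have cZ : IsMulCommutative ↥⁅K, K⁆ := isMulCommutative_iff_le_cent.2 (s4.trans (cent_anti zK))
  refine BN.false ⟨S, ⟨cZ, fun z hz => ?_⟩, s4, s2.ge.trans inf_le_right, (s5 hab).le, pw⟩
  refine pow_eq_one_of_mem_omegaOne_of_comm cZ (commutator_le.2 (fun g hg k hk => ?_) hz)
  refine subset_closure ⟨commutator_mem_commutator hg hk, ?_⟩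
  rw [← commutatorElement_pow_right_of_commute (s4 (commutator_mem_commutator hg hk) k hk).symm,
    commutatorElement_eq_one_iff_mul_comm]
  exact s4 (pw k hk) g hg

end Cfsg.Agent.Sig
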