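import Cfsg.Agent.Sig.BL3

/-! Fixed point indices on elementary abelian sections. -/

set_option autoImplicit false
open Cfsg Subgroup Cfsg.Agent.GT Cfsg.Agent.BG
open scoped commutatorElement

namespace Cfsg.Agent.Sig
universe u
variable {G : Type u} [Group G] [Finite G] {p q r s : ℕ}
  {A B D E H J K M N P Q R U V W X Y Z : Subgroup G} {x y : G}

/-- a faithful model of the action of `D` on `V` -/
theorem exists_holo (hD : D ≤ N[V]) (hV : IsElementaryAbelian q V) :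
    ∃ (Q : Type u) (_ : Group Q) (_ : Finite Q) (f : D →* Q) (V' : Subgroup Q),
      IsElementaryAbelian q V' ∧ kr f = D ⊓ C[V] ∧ im f D ≤ N[V'] ∧ im f D ⊓ C[V'] = ⊥ ∧
      ∀ X, X ≤ D → C[im f X].relIndex V' = C[X].relIndex V := by
  let Q := V ⋊[MonoidHom.id (MulAut V)] MulAut V
  have : Finite Q := Finite.of_equiv _ SemidirectProduct.equivProd.symm
  let φ : D →* MulAut V := V.normalizerMonoidHom.comp (inclusion hD)
  let f : D →* Q := SemidirectProduct.inr.comp φ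
  let ι : V →* Q := SemidirectProduct.inl
  have hι : Function.Injective ι := SemidirectProduct.inl_injective
  have hφ : ∀ (x : D) (v : V), ((φ x v : V) : G) = x * v * (x : G)⁻¹ := fun _ _ => rfl
  have key : ∀ (x : D) (v : V), f x * ι v * (f x)⁻¹ = ι (φ x v) := fun x v => by
    have := (SemidirectProduct.inl_aut (φ := MonoidHom.id (MulAut V)) (φ x) v).symm
    rwa [map_inv] at this
  have cm : ∀ (x : D) (v : V), f x * ι v = ι v * f x ↔ (x : G) * v = v * x := fun x v => by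
    rw [← mul_inv_eq_iff_eq_mul, key, hι.eq_iff, Subtype.ext_iff, hφ, mul_inv_eq_iff_eq_mul]
  have hk : kr f = D ⊓ C[V] := by
    ext x
    rw [mem_kr]
    refine ⟨fun ⟨hx, h⟩ => ⟨hx, fun v hv => ?_⟩, fun ⟨hx, h⟩ => ⟨hx, ?_⟩⟩
    · exact ((cm ⟨x, hx⟩ ⟨v, hv⟩).1 (by rw [h, one_mul, mul_one])).symm
    · have : φ ⟨x, hx⟩ = 1 := MulEquiv.ext fun v => Subtype.ext (by
        rw [hφ, mul_inv_eq_iff_eq_mul]; exact (h v v.2).symm)
      simp [f, this]
  refine ⟨Q, inferInstance, inferInstance, f, ι.range, ?_, hk, ?_, ?_, fun X hX => ?_⟩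
  · refine ⟨isMulCommutative_iff_forall.2 ?_, ?_⟩
    · rintro _ ⟨v, rfl⟩ _ ⟨w, rfl⟩
      rw [← map_mul, ← map_mul]
      exact congrArg ι (Subtype.ext (isMulCommutative_iff_forall.1 hV.1 _ v.2 _ w.2))
    · rintro _ ⟨v, rfl⟩
      rw [← map_pow, show v ^ q = 1 from Subtype.ext (hV.2 _ v.2), map_one]
  · rw [le_norm_iff]
    rintro a ha _ ⟨v, rfl⟩
    obtain ⟨x, hx, -, rfl⟩ := mem_im.1 ha
    exact ⟨_, (key _ _).symm⟩
  · rw [eq_bot_iff]
    rintro a ⟨ha, hc⟩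
    obtain ⟨x, hx, -, rfl⟩ := mem_im.1 ha
    exact (mem_kr' hx).1 (hk ▸ ⟨hx, fun v hv =>
      ((cm ⟨x, hx⟩ ⟨v, hv⟩).1 (hc _ ⟨⟨v, hv⟩, rfl⟩).symm).symm⟩)
  · rw [MonoidHom.range_eq_map, ← relIndex_comap, relIndex_top_right, relIndex]
    congr 1
    ext v
    rw [mem_comap, mem_subgroupOf]
    refine ⟨fun h x hx => (cm ⟨x, hX hx⟩ v).1 (h _ (mem_im_of_mem _ hx)), fun h a ha => ?_⟩
    obtain ⟨x, hx, hx', rfl⟩ := mem_im.1 ha
    exact (cm ⟨x, hx⟩ v).2 (h x hx')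

/-- an elementary abelian `q`-group acted on by `B`, `R` and `P` -/
structure MS (p q : ℕ) (B V R Q P : Subgroup G) : Prop where
  hp : p.Prime
  hp2 : p ≠ 2
  hq : q = 2 ∨ q = 3
  hpq : p ≠ q
  pB : IsPGroup p B
  eV : IsElementaryAbelian q V
  pP : IsPGroup q P
  solv : Group.IsSolvable R
  idx : ¬ q ∣ Q.relIndex R
  cop : ¬ p ∣ Nat.card R
  BV : B ≤ N[V]
  RV : R ≤ N[V]
  PV : P ≤ N[V]
  BR : B ≤ N[R]
  BP : B ≤ N[P]
  PR : P ≤ N[R]
  QP : Q ≤ P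
  QR : Q ≤ R
  BQ : B ≤ N[Q]
  RQ : R ≤ N[Q]
  PQ : P ≤ N[Q]
  hC : ⁅R ⊓ C[B], P⁆ ≤ Q

namespace MS
variable (S : MS p q B V R Q P)
include S

omit [Finite G] in
theorem qp : q.Prime := by
  rcases S.hq with rfl | rfl
  exacts [Nat.prime_two, Nat.prime_three]

omit [Finite G] in
theorem of (hW : IsElementaryAbelian q W) (h1 : B ≤ N[W]) (h2 : R ≤ N[W]) (h3 : P ≤ N[W]) :
    MS p q B W R Q P :=
  { S with eV := hW, BV := h1, RV := h2, PV := h3 }

theorem im {G' : Type u} [Group G'] [Finite G'] (f : D →* G') (hB : B ≤ D) (hR : R ≤ D) (hP : P ≤ D)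
    {V' : Subgroup G'} (hV : IsElementaryAbelian q V') (hn : im f (B ⊔ R ⊔ P) ≤ N[V']) :
    MS p q (im f B) V' (im f R) (im f Q) (im f P) :=
  ⟨S.hp, S.hp2, S.hq, S.hpq, isPGroup_im S.pB, hV, isPGroup_im S.pP, solvable_im S.solv,
    fun h => S.idx (h.trans (relIndex_im_dvd S.QR hR)), fun h => S.cop (h.trans card_im_dvd),
    (im_mono (le_sup_left.trans le_sup_left)).trans hn,
    (im_mono (le_sup_right.trans le_sup_left)).trans hn, (im_mono le_sup_right).trans hn,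
    im_norm S.BR, im_norm S.BP, im_norm S.PR, im_mono S.QP, im_mono S.QR, im_norm S.BQ,
    im_norm S.RQ, im_norm S.PQ, by
      rw [← im_inf_cent_of_coprime' hR hB S.BR (.inl S.solv) (coprime_of_not_dvd S.hp S.cop S.pB),
        ← im_commutator (inf_le_left.trans hR) hP]
      exact im_mono S.hC⟩

theorem bl0 (hQ : Q = ⊥) (hf : R ⊓ C[V] = ⊥) (hx : x ∈ P) (hxq : x ^ q = 1) (hne : ¬ R ≤ C1[x]) :
    q ^ 3 ≤ (C1[x]).relIndex V :=
  BL S.hp S.hp2 S.hq S.hpq S.pB S.eV S.pP S.solv (by simpa [hQ] using S.idx) S.cop S.BV S.BR S.BP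
    S.PR S.PV S.RV hf (le_cent_iff_commutator_eq_bot.2 (le_bot_iff.1 (hQ ▸ S.hC))) hx hxq hne

theorem d0 (hQ : Q = ⊥) (hf : R ⊓ C[V] = ⊥) (hP : ∀ x ∈ P, R ≤ C1[x] → x = 1) (n : ℕ) :
    ∀ E : Subgroup G, Nat.card E = n → E ≤ P → IsElementaryAbelian q E → E ≠ ⊥ →
      q ^ 2 * Nat.card E ≤ C[E].relIndex V := by
  have := Fact.mk S.qp
  have rq : ¬ q ∣ Nat.card R := by simpa [hQ] using S.idx
  induction n using Nat.strong_induction_on with
  | _ n ih =>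
  intro E hn hE eE h1
  obtain ⟨x, hx, x1⟩ := exists_ne_one_of_ne_bot h1
  have nc : ¬ R ≤ C[E] := fun h => x1 (hP x (hE hx) (h.trans (cent_le_cent1 hx)))
  obtain ⟨F, hF, hd, hT⟩ : ∃ F, F ≤ E ∧ Nat.card E ∣ q * Nat.card F ∧ ¬ R ⊓ C[F] ≤ C[E] := by
    by_contra hc
    push Not at hc
    exact nc (coprime_elemAb_gen_cent S.qp eE (hE.trans S.PR)
      (coprime_of_not_dvd S.qp rq (S.pP.to_le hE)) hc)
  have hlt : F < E := lt_of_le_of_ne hF fun e => hT (e ▸ inf_le_right)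
  have hle := Nat.le_of_dvd (Nat.mul_pos S.qp.pos (card_pos' F)) hd
  by_cases h0 : F = ⊥
  · rw [h0, card_bot, mul_one] at hle
    refine le_trans ?_ ((S.bl0 hQ hf (hE hx) (eE.2 x hx) fun h => x1 (hP x (hE hx) h)).trans
      (relIndex_le_of_le_left (cent_le_cent1 hx) (relIndex_pos _ _).ne'))
    rw [pow_succ]
    exact Nat.mul_le_mul_left _ hle
  have h2 := ih _ (hn ▸ card_lt_of_lt hlt) F rfl (hF.trans hE) (PG.elemAb_of_le eE hF) h0
  have pV := isPGroup_of_elementary S.eV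
  have EF : E ≤ C[F] := (PG.elemAb_le_cent eE).trans (cent_anti hF)
  have nT : E ≤ N[R ⊓ C[F]] := le_norm_inf (hE.trans S.PR) (le_norm_cent (le_norm_of_cent EF))
  have h3 : ¬ V ⊓ C[F] ≤ C[E] := fun h => by
    have t1 : ⁅R ⊓ C[F], E⁆ ≤ R ⊓ C[F] := commutator_le_of_le_norm_left nT
    have t2 : ⁅R ⊓ C[F], E⁆ ≤ C[V] := thompson_AxB_pgroup S.qp pV (S.pP.to_le (hF.trans hE))
      (fun t ht hd e => rq (e ▸ hd.trans (card_dvd_of_le (t1.trans inf_le_left))))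
      ((t1.trans inf_le_left).trans S.RV) ((hF.trans hE).trans S.PV) (t1.trans inf_le_right)
      (le_cent_symm (commutator_le_cent_of_norm_of_cent (le_norm_inf (inf_le_left.trans S.RV)
        (le_norm_cent (le_norm_of_cent inf_le_right))) (le_cent_symm h)))
    exact hT (le_cent_iff_commutator_eq_bot.2
      (le_bot_iff.1 (hf ▸ le_inf (t1.trans inf_le_left) t2)))
  have h4 := Nat.le_of_dvd (relIndex_pos _ _)
    (PG.dvd_relIndex_of_not_le (pV.to_le inf_le_left) h3)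
  rw [← inf_eq_left.2 (cent_anti hF), ← relIndex_inf_mul_relIndex, inf_comm]
  calc q ^ 2 * Nat.card E ≤ q * (q ^ 2 * Nat.card F) := by
        rw [mul_left_comm]; exact Nat.mul_le_mul_left _ hle
    _ ≤ _ := Nat.mul_le_mul h4 h2

theorem holo (hQ : Q ≤ C[V]) : ∃ (G' : Type u) (_ : Group G') (_ : Finite G')
    (f : ↥(B ⊔ R ⊔ P) →* G') (V' : Subgroup G'), kr f = (B ⊔ R ⊔ P) ⊓ C[V] ∧
      MS p q (GT.im f B) V' (GT.im f R) (GT.im f Q) (GT.im f P) ∧ GT.im f Q = ⊥ ∧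
      GT.im f R ⊓ C[V'] = ⊥ ∧ ∀ X, X ≤ B ⊔ R ⊔ P → C[GT.im f X].relIndex V' = C[X].relIndex V := by
  obtain ⟨G', _, _, f, V', h1, h2, h3, h4, h5⟩ := exists_holo (sup_le (sup_le S.BV S.RV) S.PV) S.eV
  refine ⟨G', inferInstance, inferInstance, f, V', h2, S.im f (le_sup_left.trans le_sup_left)
    (le_sup_right.trans le_sup_left) le_sup_right h1 h3,
    im_eq_bot_of_le (h2 ▸ le_inf (S.QP.trans le_sup_right) hQ), ?_, h5⟩
  rw [eq_bot_iff, ← h4]
  exact inf_le_inf_right _ im_le_im_dom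

theorem bl2 (hQ : Q ≤ C[V]) (hx : x ∈ P) (hxq : x ^ q = 1) (h : (C1[x]).relIndex V < q ^ 3) :
    ⁅R, zpowers x⁆ ≤ C[V] := by
  obtain ⟨G', _, _, f, V', hk, S', h1, h2, h3⟩ := S.holo hQ
  have dR : R ≤ B ⊔ R ⊔ P := le_sup_right.trans le_sup_left
  have dx : x ∈ B ⊔ R ⊔ P := mem_sup_right hx
  by_contra hn
  refine h.not_ge ?_
  rw [← cent_zpowers, ← h3 _ (zpowers_le_of_mem dx), im_zpowers dx, cent_zpowers]
  refine S'.bl0 h1 h2 (mem_im_of_mem _ hx) (by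
    rw [← map_pow, ← map_one f]; exact congrArg f (Subtype.ext hxq)) fun e => hn ?_
  rw [← cent_zpowers, ← im_zpowers dx, im_le_cent_iff dR (zpowers_le_of_mem dx), hk] at e
  exact e.trans inf_le_right

theorem d (hQ : Q ≤ C[V]) (hP : ∀ x ∈ P, ⁅R, zpowers x⁆ ≤ C[V] → x ∈ C[V]) (hE : E ≤ P)
    (eE : IsElementaryAbelian q E) (h : ¬ E ≤ C[V]) :
    q ^ 2 * C[V].relIndex E ≤ C[E].relIndex V := by
  obtain ⟨G', _, _, f, V', hk, S', h1, h2, h3⟩ := S.holo hQ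
  have dR : R ≤ B ⊔ R ⊔ P := le_sup_right.trans le_sup_left
  have dE : E ≤ B ⊔ R ⊔ P := hE.trans le_sup_right
  have := S'.d0 h1 h2 (fun y hy e => by
    obtain ⟨x, dx, hx, rfl⟩ := mem_im.1 hy
    rw [← cent_zpowers, ← im_zpowers dx, im_le_cent_iff dR (zpowers_le_of_mem dx), hk] at e
    exact (mem_kr' dx).1 (hk ▸ ⟨dx, hP x hx (e.trans inf_le_right)⟩)) _ (GT.im f E) rfl (im_mono hE)
    (PG.elemAb_im eE) (by rw [Ne, im_eq_bot_iff dE, hk]; exact fun e => h (e.trans inf_le_right))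
  rwa [h3 _ dE, card_im dE, hk, ← inf_relIndex_right, inf_right_comm, inf_eq_right.2 dE,
    inf_relIndex_left] at this

omit S in
theorem bl3_aux (n : ℕ) : ∀ {G : Type u} [Group G] [Finite G] {B V R Q P : Subgroup G} {x c : G},
    Nat.card V = n → MS p q B V R Q P → x ∈ P → x ^ q = 1 → (C1[x]).relIndex V < q ^ 3 →
    c ∈ ⁅R, zpowers x⁆ → ¬ q ∣ orderOf c → c ∈ C[V] := by
  induction n using Nat.strong_induction_on with
  | _ n ih =>
  intro G _ _ B V R Q P x c hn S hx hxq h hc hq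
  by_cases h0 : V = ⊥
  · rw [h0, cent_bot]; exact mem_top _
  have := Fact.mk S.qp
  have pV := isPGroup_of_elementary S.eV
  have nB : B ≤ N[V ⊓ C[Q]] := le_norm_inf S.BV (le_norm_cent S.BQ)
  have nR : R ≤ N[V ⊓ C[Q]] := le_norm_inf S.RV (le_norm_cent S.RQ)
  have nP : P ≤ N[V ⊓ C[Q]] := le_norm_inf S.PV (le_norm_cent S.PQ)
  have h1 : c ∈ C[V ⊓ C[Q]] := (S.of (PG.elemAb_of_le S.eV inf_le_left) nB nR nP).bl2
    (le_cent_symm inf_le_right) hx hxq ((relIndex_mono_right inf_le_left).trans_lt h) hc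
  obtain ⟨G', _, _, f, -, hk⟩ := exists_quo' (V ⊔ (B ⊔ R ⊔ P)) (V ⊓ C[Q])
    (inf_le_left.trans le_sup_left) (sup_le (le_norm_of_cent ((PG.elemAb_le_cent S.eV).trans
      (cent_anti inf_le_left))) (sup_le (sup_le nB nR) nP))
  have dV : V ≤ V ⊔ (B ⊔ R ⊔ P) := le_sup_left
  have dR : R ≤ V ⊔ (B ⊔ R ⊔ P) := (le_sup_right.trans le_sup_left).trans le_sup_right
  have dP : P ≤ V ⊔ (B ⊔ R ⊔ P) := le_sup_right.trans le_sup_right
  have cR : c ∈ R := commutator_le_of_le_norm_left ((zpowers_le_of_mem hx).trans S.PR) hc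
  have h2 := ih _ (hn ▸ card_im_lt dV (by
      rw [hk, ← inf_assoc, inf_idem]
      exact PG.inf_cent_ne_bot (S.pP.to_le S.QP) pV (S.QP.trans S.PV) h0)) rfl
    (S.im f ((le_sup_left.trans le_sup_left).trans le_sup_right) dR dP (PG.elemAb_im S.eV)
      (im_norm (sup_le (sup_le S.BV S.RV) S.PV))) (x := f ⟨x, dP hx⟩) (c := f ⟨c, dR cR⟩)
    (mem_im_of_mem _ hx) (by rw [← map_pow, ← map_one f]; exact congrArg f (Subtype.ext hxq))
    (by
      refine lt_of_le_of_lt ?_ h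
      rw [← inf_relIndex_left V C1[x]]
      refine le_trans (relIndex_le_of_le_left ?_ (relIndex_pos _ _).ne')
        (Nat.le_of_dvd (relIndex_pos _ _) (relIndex_im_dvd inf_le_left dV))
      rw [← cent_zpowers, ← cent_zpowers, ← im_zpowers (dP hx)]
      exact im_inf_cent_le.trans inf_le_right)
    (by
      rw [← im_zpowers (dP hx), ← im_commutator dR (zpowers_le_of_mem (dP hx))]
      exact mem_im_of_mem _ hc)
    (fun e => hq (e.trans ((orderOf_map_dvd f _).trans (by rw [← orderOf_coe]))))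
  rw [← PG.zpowers_le_cent_iff, ← im_zpowers (dR cR), im_le_cent_iff (zpowers_le_of_mem (dR cR)) dV,
    hk, commutator_comm] at h2
  rw [← PG.zpowers_le_cent_iff] at h1 ⊢
  exact le_cent_symm (coprime_le_cent_of_commutator_le_cent ((zpowers_le_of_mem cR).trans S.RV)
    (coprime_of_not_dvd S.qp (by rwa [Nat.card_zpowers]) pV).symm (h2.trans (le_cent_symm h1)))

theorem bl3 {c : G} (hx : x ∈ P) (hxq : x ^ q = 1) (h : (C1[x]).relIndex V < q ^ 3)
    (hc : c ∈ ⁅R, zpowers x⁆) (hq : ¬ q ∣ orderOf c) : c ∈ C[V] :=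
  bl3_aux _ rfl S hx hxq h hc hq

end MS

end Cfsg.Agent.Sig
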