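import Cfsg.Agent.Sig.Side
import Cfsg.Agent.Sig.Mod
import Cfsg.Agent.GT.Constt

/-! Local properties of one side of the amalgam. -/

set_option autoImplicit false
open Cfsg Subgroup Cfsg.Agent.GT Cfsg.Agent.BG
open scoped commutatorElement

namespace Cfsg.Agent.Sig
universe u
variable {G : Type u} [Group G] {p q r s : ℕ}
  {A B D E H J K L M N P Q R U V W X Y Z : Subgroup G} {x y : G}

/-- a vertex of the amalgam together with an edge group `P` -/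
structure Vx (p q : ℕ) (B P L Q R Y : Subgroup G) : Prop extends Side p q B P L Q R where
  hp : p.Prime
  hp2 : p ≠ 2
  hq : q = 2 ∨ q = 3
  hpq : p ≠ q
  pB : IsPGroup p B
  pP : IsPGroup q P
  BP : B ≤ N[P]
  BQ : B ≤ N[Q]
  BR : B ≤ N[R]
  BY : B ≤ N[Y]
  eY : IsElementaryAbelian q Y
  YQ : Y ≤ Q
  QY : Q ≤ C[Y]
  LY : L ≤ N[Y]
  fY : ∀ x ∈ P, ⁅R, zpowers x⁆ ≤ C[Y] → x ∈ C[Y]

theorem conj_faith {g : G} (h : ∀ x ∈ P, ⁅R, zpowers x⁆ ≤ X → x ∈ X) :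
    ∀ x ∈ cj[g] P, ⁅cj[g] R, zpowers x⁆ ≤ cj[g] X → x ∈ cj[g] X := by
  intro x hx e
  obtain ⟨y, hy, rfl⟩ := mem_conj_iff_exists.1 hx
  rw [← conj_zpowers, ← conj_commutator, conj_le_conj_iff] at e
  exact conj_mem_conj.2 (h y hy e)

theorem Side.conj (S : Side p q B P L Q R) (g : G) :
    Side p q (cj[g] B) (cj[g] P) (cj[g] L) (cj[g] Q) (cj[g] R) :=
  ⟨conj_mono g S.QP, conj_mono g S.PL, conj_mono g S.QR, conj_mono g S.RL,
    conj_le_norm_conj_iff.2 S.nQ, conj_le_norm_conj_iff.2 S.nR, isSolvable_conj_iff.2 S.solv,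
    by rw [card_conj]; exact S.cop, by rw [relIndex_conj]; exact S.idx,
    by rw [← conj_centralizer, ← conj_inf]; exact conj_mono g S.chr, conj_faith S.faith,
    by rw [← conj_centralizer, ← conj_inf, conj_le_norm_conj_iff]; exact S.cenB,
    S.gen.imp (fun h => by rw [h, conj_sup]) (conj_mono g)⟩

theorem Vx.conj (S : Vx p q B P L Q R Y) (g : G) :
    Vx p q (cj[g] B) (cj[g] P) (cj[g] L) (cj[g] Q) (cj[g] R) (cj[g] Y) :=
  ⟨S.toSide.conj g, S.hp, S.hp2, S.hq, S.hpq, S.pB.map _, S.pP.map _, conj_le_norm_conj_iff.2 S.BP,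
    conj_le_norm_conj_iff.2 S.BQ, conj_le_norm_conj_iff.2 S.BR, conj_le_norm_conj_iff.2 S.BY,
    isElementaryAbelian_map S.eY _, conj_mono g S.YQ, conj_le_cent_conj_iff.2 S.QY,
    conj_le_norm_conj_iff.2 S.LY, by rw [← conj_centralizer]; exact conj_faith S.fY⟩

theorem comm_mul_mem (hx : ⁅x, y⁆ ∈ P) (hy : y ∈ P) : x * y * x⁻¹ ∈ P := by
  simpa [commutatorElement_def] using mul_mem hx hy

variable [Finite G]

theorem relIndex_le_mul (H : Subgroup G) (h : K ≤ L) :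
    H.relIndex L ≤ H.relIndex K * K.relIndex L := by
  rw [← inf_eq_left.2 h, inf_relIndex_right, relIndex_inf_mul_relIndex]
  exact relIndex_le_of_le_left inf_le_left (relIndex_pos _ _).ne'

/-- the counting lemma -/
theorem count_cent {Y₀ U₀ : Subgroup G} (hq : 1 < q) (h1 : Y₀ ≤ Y) (h2 : U₀ ≤ U)
    (i1 : Y₀.relIndex Y ≤ q) (i2 : U₀.relIndex U ≤ q)
    (dU : ¬ Y₀ ≤ C[U] → q ^ 2 * C[U].relIndex Y₀ ≤ C[Y₀].relIndex U)
    (dY : ¬ U₀ ≤ C[Y] → q ^ 2 * C[Y].relIndex U₀ ≤ C[U₀].relIndex Y) : Y₀ ≤ C[U] := by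
  by_contra hn
  have a1 := (dU hn).trans (relIndex_le_of_le_left (cent_anti h1) (relIndex_pos _ _).ne')
  have a2 := (relIndex_le_mul C[Y] h2).trans (Nat.mul_le_mul_left _ i2)
  have a3 := (relIndex_le_mul C[U] h1).trans (Nat.mul_le_mul_left _ i1)
  have p1 := relIndex_pos C[U] Y₀
  by_cases h : U₀ ≤ C[Y]
  · rw [relIndex_eq_one.2 h] at a2
    nlinarith
  · have a4 := (dY h).trans (relIndex_le_of_le_left (cent_anti h2) (relIndex_pos _ _).ne')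
    have p2 := relIndex_pos C[Y] U₀
    have b1 : q * C[U].relIndex Y₀ ≤ C[Y].relIndex U₀ :=
      Nat.le_of_mul_le_mul_left (by nlinarith) (show 0 < q by omega)
    have b2 : q * C[Y].relIndex U₀ ≤ C[U].relIndex Y₀ :=
      Nat.le_of_mul_le_mul_left (by nlinarith) (show 0 < q by omega)
    nlinarith

namespace Vx
variable (S : Vx p q B P L Q R Y)
include S

omit [Finite G] in
theorem qp : q.Prime := by
  rcases S.hq with rfl | rfl
  exacts [Nat.prime_two, Nat.prime_three]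

theorem PR_le : P ⊓ R ≤ Q :=
  PG.le_of_normal_of_not_dvd_relIndex S.qp inf_le_right (S.pP.to_le inf_le_left)
    (S.RL.trans S.nQ) S.idx

theorem ms (hV : IsElementaryAbelian q V) (h1 : B ≤ N[V]) (h2 : R ≤ N[V]) (h3 : P ≤ N[V]) :
    MS p q B V R Q P :=
  ⟨S.hp, S.hp2, S.hq, S.hpq, S.pB, hV, S.pP, solv_of_le S.solv S.RL, S.idx,
    fun h => S.cop (h.trans (card_dvd_of_le S.RL)), h1, h2, h3, S.BR, S.BP, S.PL.trans S.nR, S.QP,
    S.QR, S.BQ, S.RL.trans S.nQ, S.PL.trans S.nQ,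
    (le_inf (commutator_le_of_le_norm_right S.cenB) ((commutator_mono inf_le_left le_rfl).trans
      (commutator_le_of_le_norm_left (S.PL.trans S.nR)))).trans S.PR_le⟩

theorem d (hE : E ≤ P) (eE : IsElementaryAbelian q E) (h : ¬ E ≤ C[Y]) :
    q ^ 2 * C[Y].relIndex E ≤ C[E].relIndex Y :=
  (S.ms S.eY S.BY (S.RL.trans S.LY) (S.PL.trans S.LY)).d S.QY S.fY hE eE h

omit [Finite G] in
theorem comm_mem (hx : x ∈ R) (hy : y ∈ P) : ⁅x, y⁆ ∈ R :=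
  commutator_le_of_le_norm_left (S.PL.trans S.nR) (commutator_mem_commutator hx hy)

theorem split {c : G} (hc : c ∈ R) :
    ∃ u ∈ Q, ∃ z ∈ zpowers c, ¬ q ∣ orderOf z ∧ c = u * z := by
  obtain ⟨-, z, hz, -, h2, h3⟩ := constt_spec {q} c
  exact ⟨_, (syl_mk S.qp S.QR (S.pP.to_le S.QP) S.idx).constt_mem (S.RL.trans S.nQ) hc, z, hz,
    fun h => h2 q S.qp h rfl, h3⟩

theorem quo : ∃ (G' : Type u) (_ : Group G') (_ : Finite G') (f : L →* G'), kr f = Q ∧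
    (Nat.card (im f R)).Coprime (Nat.card (im f P)) := by
  obtain ⟨G', _, _, f, -, hk⟩ := exists_quo' L Q (S.QP.trans S.PL) S.nQ
  exact ⟨G', inferInstance, inferInstance, f, hk,
    coprime_of_not_dvd S.qp (by rw [card_im S.RL, hk]; exact S.idx) (isPGroup_im S.pP)⟩

omit S [Finite G] in
theorem comm_mem_kr {G' : Type u} [Group G'] {f : L →* G'} (hx : x ∈ L) (hy : y ∈ L) :
    ⁅x, y⁆ ∈ kr f ↔ ⁅f ⟨x, hx⟩, f ⟨y, hy⟩⁆ = 1 := by
  rw [← map_commutatorElement, mem_kr' (show ⁅x, y⁆ ∈ L from (⁅(⟨x, hx⟩ : L), ⟨y, hy⟩⁆ : L).2)]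
  rfl

theorem cq (hx : x ∈ R) (hy : y ∈ P) (h : ⁅⁅x, y⁆, y⁆ ∈ Q) : ⁅x, y⁆ ∈ Q := by
  obtain ⟨G', _, _, f, hk, hc⟩ := S.quo
  have m := S.comm_mem hx hy
  rw [← hk, comm_mem_kr (S.RL m) (S.PL hy)] at h
  rw [← hk, comm_mem_kr (S.RL hx) (S.PL hy)]
  have e : f ⟨⁅x, y⁆, S.RL m⟩ = ⁅f ⟨x, S.RL hx⟩, f ⟨y, S.PL hy⟩⁆ := by
    rw [← map_commutatorElement]; rfl
  refine commutatorElement_eq_one_of_coprime (e ▸ commutatorElement_eq_one_iff_commute.1 h) ?_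
  rw [← e]
  exact Nat.Coprime.coprime_dvd_left (orderOf_dvd_card_of_mem (mem_im_of_mem _ m))
    (hc.coprime_dvd_right (orderOf_dvd_card_of_mem (mem_im_of_mem _ hy)))

omit [Finite G] in
theorem faith' (hy : y ∈ P) (h : ∀ x ∈ R, ⁅x⁻¹, y⁆ ∈ Q) : y ∈ Q := by
  refine S.faith y hy ?_
  rw [commutator_comm]
  refine PG.commutator_zpowers_le (S.nQ (S.PL hy)) fun x hx => PG.commutator_mem_comm.1 ?_
  simpa using h x⁻¹ (inv_mem hx)

/-- hyperplanes centralizing a part of `R/Q` -/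
theorem hyp (hE : E ≤ P) (eE : IsElementaryAbelian q E) (hy : y ∈ E) (hyQ : y ∉ Q) :
    ∃ F, F ≤ E ∧ E ⊓ Q ≤ F ∧ F.relIndex E ≤ q ∧ ∃ x ∈ R, (∀ e ∈ F, ⁅x, e⁆ ∈ Q ∧ ⁅x⁻¹, e⁆ ∈ Q) ∧
      ⁅x, y⁆ ∉ Q ∧ ⁅x⁻¹, y⁆ ∉ Q := by
  obtain ⟨G', _, _, f, hk, hc⟩ := S.quo
  have dE := hE.trans S.PL
  obtain ⟨F, hF, hd, hT⟩ : ∃ F, F ≤ im f E ∧ Nat.card (im f E) ∣ q * Nat.card F ∧
      ¬ im f R ⊓ C[F] ≤ C1[f ⟨y, dE hy⟩] := by
    by_contra hn
    push Not at hn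
    have := coprime_elemAb_gen_cent S.qp (PG.elemAb_im eE) (im_norm (dE.trans S.nR))
      (coprime_card_of_le hc le_rfl (im_mono hE)) hn
    rw [← cent_zpowers, ← im_zpowers (dE hy), im_le_cent_iff S.RL (zpowers_le_of_mem (dE hy)),
      hk] at this
    exact hyQ (S.faith y (hE hy) this)
  obtain ⟨_, ⟨hx', h1⟩, h2⟩ := SetLike.not_le_iff_exists.1 hT
  obtain ⟨x, dx, hx, rfl⟩ := mem_im.1 hx'
  have cm : ∀ e (he : e ∈ L), (⁅x, e⁆ ∈ Q ↔ f ⟨x, dx⟩ ∈ C1[f ⟨e, he⟩]) ∧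
      (⁅x⁻¹, e⁆ ∈ Q ↔ f ⟨x, dx⟩ ∈ C1[f ⟨e, he⟩]) := fun e he => by
    rw [← hk, comm_mem_kr dx he, comm_mem_kr (inv_mem dx) he, ← inv_mem_iff (x := f ⟨x, dx⟩),
      ← map_inv, mem_cent1, commutatorElement_eq_one_iff_mul_comm,
      commutatorElement_eq_one_iff_mul_comm]
    refine ⟨?_, Iff.rfl⟩
    rw [← mem_cent1, ← mem_cent1, map_inv, inv_mem_iff]
  refine ⟨E ⊓ pre f F, inf_le_left, inf_le_inf_left _ (hk ▸ kr_le_pre), ?_, x, hx,
    fun e he => ?_, (cm y (dE hy)).1.not.2 h2, (cm y (dE hy)).2.not.2 h2⟩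
  · rw [inf_relIndex_left, relIndex_pre dE]
    rw [← card_mul_relIndex hF, mul_comm q] at hd
    exact Nat.le_of_dvd S.qp.pos (Nat.dvd_of_mul_dvd_mul_left (card_pos' F) hd)
  · have := cent_le_cent1 ((mem_pre' (dE he.1)).1 he.2) h1
    exact ⟨(cm e (dE he.1)).1.2 this, (cm e (dE he.1)).2.2 this⟩

omit [Finite G] in
theorem le_conj (hE : E ≤ P) (h : ∀ e ∈ E, ⁅x⁻¹, e⁆ ∈ Q) : E ≤ cj[x] P := fun e he => by
  simpa [mem_conj] using comm_mul_mem (S.QP (h e he)) (hE he)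

omit [Finite G] in
theorem Q_le_conj (hx : x ∈ L) : Q ≤ cj[x] P :=
  (conj_eq_self (S.nQ hx)).ge.trans (conj_mono x S.QP)

end Vx

/-- an oriented edge of the amalgam -/
structure Ed (p q : ℕ) (B P L Q R Y L' Q' R' Y' : Subgroup G) : Prop where
  v : Vx p q B P L Q R Y
  w : Vx p q B P L' Q' R' Y'
  h : R ⊓ N[Y'] ≤ N[Q']

variable {L' Q' R' Y' : Subgroup G}

omit [Finite G] in
theorem Ed.conj (S : Ed p q B P L Q R Y L' Q' R' Y') (g : G) :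
    Ed p q (cj[g] B) (cj[g] P) (cj[g] L) (cj[g] Q) (cj[g] R) (cj[g] Y) (cj[g] L') (cj[g] Q')
      (cj[g] R') (cj[g] Y') :=
  ⟨S.v.conj g, S.w.conj g, by
    rw [← conj_normalizer, ← conj_inf, conj_le_norm_conj_iff]; exact S.h⟩

/-- the subgroup generated by the conjugates of `Y` under `R` -/
def ncl (R Y : Subgroup G) : Subgroup G := sSup {X | ∃ x ∈ R, X = cj[x] Y}

omit [Finite G] in
theorem le_ncl (hx : x ∈ R) : cj[x] Y ≤ ncl R Y := le_sSup ⟨x, hx, rfl⟩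

omit [Finite G] in
theorem self_le_ncl : Y ≤ ncl R Y := (one_conj Y).ge.trans (le_ncl (one_mem R))

omit [Finite G] in
theorem ncl_le (h : ∀ x ∈ R, cj[x] Y ≤ X) : ncl R Y ≤ X :=
  sSup_le (by rintro _ ⟨x, hx, rfl⟩; exact h x hx)

omit [Finite G] in
theorem self_le_norm_ncl : R ≤ N[ncl R Y] :=
  le_norm_sSup_of_conj_mem (by
    rintro a ha _ ⟨b, hb, rfl⟩
    exact ⟨a * b, mul_mem ha hb, (mul_conj _ _ _).symm⟩)

omit [Finite G] in
theorem le_norm_ncl (h1 : A ≤ N[R]) (h2 : A ≤ N[Y]) : A ≤ N[ncl R Y] :=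
  le_norm_sSup_of_conj_mem (by
    rintro a ha _ ⟨b, hb, rfl⟩
    refine ⟨a * b * a⁻¹, conj_mem_of_mem_norm (h1 ha) hb, ?_⟩
    rw [mul_conj, mul_conj, conj_eq_self (inv_mem (h2 ha))])

omit [Finite G] in
theorem elemAb_of_le_closure (hV : IsMulCommutative V) (h : V ≤ omegaOne q V) :
    IsElementaryAbelian q V :=
  ⟨hV, fun _ hx => pow_eq_one_of_mem_omegaOne_of_comm hV (h hx)⟩

namespace Ed
variable (S : Ed p q B P L Q R Y L' Q' R' Y')
include S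

theorem n0 (hy : y ∈ Q') (hx : x ∈ R) (h : ⁅x, y⁆ ∈ N[Q']) : ⁅x, y⁆ ∈ Q := by
  have hP := S.w.QP hy
  exact S.v.cq hx hP (S.v.PR_le ⟨S.w.QP (commutator_le_of_le_norm_right (zpowers_le_of_mem h)
    (commutator_mem_commutator (mem_zpowers _) hy)), S.v.comm_mem (S.v.comm_mem hx hP) hP⟩)

theorem n1 (hy : y ∈ Q') (hx : x ∈ R) (h : y ∈ C[cj[x] Y']) : ⁅x⁻¹, y⁆ ∈ Q := by
  refine S.n0 hy (inv_mem hx) (S.h ⟨S.v.comm_mem (inv_mem hx) (S.w.QP hy), cent_le_norm _ ?_⟩)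
  rw [← conj_centralizer, mem_conj] at h
  simpa [commutatorElement_def] using mul_mem h (inv_mem (S.w.QY hy))

/-- the case of adjacent vertices -/
theorem adj : Y' ≤ Q := by
  by_contra hn
  obtain ⟨y, hy, hyQ⟩ := SetLike.not_le_iff_exists.1 hn
  have YP : Y' ≤ P := S.w.YQ.trans S.w.QP
  obtain ⟨F, hF, f1, f2, x, hx, f3, f4, -⟩ := S.v.hyp YP S.w.eY hy hyQ
  have q1 := S.v.qp.one_lt
  have U0 : cj[x] F ≤ P := conj_le_iff_forall.2 fun e he =>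
    comm_mul_mem (S.v.QP (f3 e he).1) (YP (hF he))
  have dU := (S.w.conj x).d (S.v.le_conj (hF.trans YP) fun e he => (f3 e he).2)
    (PG.elemAb_of_le S.w.eY hF)
  have dY := S.w.d U0 (isElementaryAbelian_map (PG.elemAb_of_le S.w.eY hF) _)
  have i2 : (cj[x] F).relIndex (cj[x] Y') ≤ q := by rwa [relIndex_conj]
  have c1 := count_cent q1 hF (conj_mono x hF) f2 i2 dU dY
  have c2 := count_cent q1 (conj_mono x hF) hF i2 f2 dY dU
  have e1 := PG.elemAb_le_cent S.w.eY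
  have cM : F ⊔ cj[x] F ≤ C[Y' ⊔ cj[x] Y'] := by
    rw [cent_sup]
    exact sup_le (le_inf (hF.trans e1) c1)
      (le_inf c2 ((conj_mono x hF).trans (conj_le_cent_conj_iff.2 e1)))
  have k1 : ⁅Q, Y'⁆ ≤ F := le_trans (le_inf
    (commutator_le_of_le_norm_right ((S.v.QP.trans S.w.PL).trans S.w.LY))
    (commutator_le_of_le_norm_left ((YP.trans S.v.PL).trans S.v.nQ))) f1
  have k2 : ⁅Q, cj[x] Y'⁆ ≤ cj[x] F := by
    rw [← conj_eq_self (S.v.nQ (S.v.RL hx)), ← conj_commutator]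
    exact conj_mono x k1
  have nM := le_norm_of_cent (le_cent_symm cM)
  have k3 : ⁅Q, Y' ⊔ cj[x] Y'⁆ ≤ F ⊔ cj[x] F := PG.commutator_sup_le' (le_sup_left.trans nM)
    (le_sup_right.trans nM) (k1.trans le_sup_left) (k2.trans le_sup_right)
  have cR := S.v.comm_mem hx (YP hy)
  obtain ⟨u, hu, z, hz, hq, e⟩ := S.v.split cR
  have zM : zpowers z ≤ Y' ⊔ cj[x] Y' := (zpowers_le_of_mem hz).trans (zpowers_le_of_mem
    (mul_mem (mem_sup_right (conj_mem_conj.2 hy)) (inv_mem (mem_sup_left hy))))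
  have zL : zpowers z ≤ L := (zpowers_le_of_mem hz).trans ((zpowers_le_of_mem cR).trans S.v.RL)
  have := coprime_le_cent_of_commutator_le_cent (zL.trans S.v.nQ) (coprime_of_not_dvd S.v.qp
    (by rwa [Nat.card_zpowers]) (S.v.pP.to_le S.v.QP)).symm
    (((commutator_mono le_rfl zM).trans k3).trans (cM.trans (cent_anti zM)))
  exact f4 (e ▸ mul_mem hu (S.v.chr ⟨zL (mem_zpowers z), le_cent_symm this (mem_zpowers z)⟩))

theorem V_le : ncl R Y' ≤ Q := ncl_le fun x hx =>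
  (conj_mono x S.adj).trans (conj_eq_self (S.v.nQ (S.v.RL hx))).le

theorem eV : IsElementaryAbelian q (ncl R Y') := by
  have e : ∀ x : G, IsElementaryAbelian q (cj[x] Y') := fun x => isElementaryAbelian_map S.w.eY _
  have k : ∀ x ∈ R, ∀ y ∈ R, cj[x] Y' ≤ cj[y] P := fun x hx y hy =>
    ((le_ncl hx).trans S.V_le).trans (S.v.Q_le_conj (S.v.RL hy))
  refine elemAb_of_le_closure (isMulCommutative_iff_le_cent.2 (ncl_le fun x hx => le_cent_symm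
    (ncl_le fun y hy => ?_))) (ncl_le fun x hx z hz =>
      subset_closure ⟨le_ncl hx hz, (e x).2 z hz⟩)
  have q1 := S.v.qp.one_lt
  exact count_cent q1 le_rfl le_rfl (by simpa using q1.le) (by simpa using q1.le)
    ((S.w.conj x).d (k y hy x hx) (e y)) ((S.w.conj y).d (k x hx y hy) (e x))

theorem small (hy : y ∈ Q') (hyq : y ^ q = 1) (h : (C1[y]).relIndex (ncl R Y') < q ^ 3) : y ∈ Q := by
  have hP := S.w.QP hy
  have M := S.v.ms S.eV (le_norm_ncl S.v.BR S.w.BY) self_le_norm_ncl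
    (le_norm_ncl (S.v.PL.trans S.v.nR) (S.w.PL.trans S.w.LY))
  refine S.v.faith' hP fun x hx => S.n0 hy (inv_mem hx) ?_
  have cR := S.v.comm_mem (inv_mem hx) hP
  obtain ⟨u, hu, z, hz, hq, e⟩ := S.v.split cR
  rw [e]
  refine mul_mem (S.w.nQ (S.w.PL (S.v.QP hu))) (S.h ⟨zpowers_le_of_mem cR hz, cent_le_norm _ ?_⟩)
  exact cent_anti self_le_ncl (M.bl3 hP hyq h (zpowers_le_of_mem
    (commutator_mem_commutator (inv_mem hx) (mem_zpowers y)) hz) hq)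

/-- the case of vertices at distance at least two -/
theorem far {B₂ P₂ L₁ Q₁ R₁ Y₁ L₂ Q₂ R₂ Y₂ : Subgroup G}
    (T : Ed p q B₂ P₂ L₁ Q₁ R₁ Y₁ L₂ Q₂ R₂ Y₂) (h1 : ncl R Y' ≤ Q₂)
    (h2 : ∀ l ∈ L₁, cj[l] Y₂ ≤ Q') {l₀ : G} (hl : l₀ ∈ L₁) : cj[l₀] Y₂ ≤ Q := by
  by_contra h3
  have := Fact.mk S.v.qp
  have q1 := S.v.qp.one_lt
  have eV := S.eV
  obtain ⟨l, hl, H, hH, iH, HP, nc⟩ : ∃ l ∈ L₁, ∃ H, H ≤ ncl R Y' ∧ H.relIndex (ncl R Y') ≤ q ∧
      H ≤ cj[l] P₂ ∧ ¬ ncl R Y' ≤ C[cj[l] Y₂] := by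
    by_cases hV : ncl R Y' ≤ Q₁
    · refine ⟨l₀, hl, _, le_rfl, by simpa using q1.le, hV.trans (T.v.Q_le_conj hl), fun e => h3 ?_⟩
      intro y hy
      exact S.v.faith' (S.w.QP (h2 _ hl hy)) fun x hx => S.n1 (h2 _ hl hy) hx
        (le_cent_symm ((le_ncl hx).trans e) hy)
    · obtain ⟨v, hv, hvQ⟩ := SetLike.not_le_iff_exists.1 hV
      obtain ⟨F, hF, -, f2, x, hx, f3, -, f4⟩ := T.v.hyp (h1.trans T.w.QP) eV hv hvQ
      exact ⟨x, T.v.RL hx, F, hF, f2, T.v.le_conj (hF.trans (h1.trans T.w.QP))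
        fun e he => (f3 e he).2, fun e => f4 (T.n1 (h1 hv) hx (e hv))⟩
  have A := T.w.conj l
  have YQ := h2 l hl
  generalize cj[l] Y₂ = Ya at *
  have YP := YQ.trans S.w.QP
  have key : ∀ F, F ≤ Ya → F.relIndex Ya ≤ q → ∀ x ∈ R, F ≤ cj[x] P → F ≤ C[cj[x] Y'] :=
    fun F hF iF x hx hP => count_cent q1 hF (inf_le_left (b := H)) iF
      (by rw [inf_relIndex_left]; exact (relIndex_mono_right (le_ncl hx)).trans iH)
      ((S.w.conj x).d hP (PG.elemAb_of_le A.eY hF))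
      (A.d (inf_le_right.trans HP) (PG.elemAb_of_le eV (inf_le_right.trans hH)))
  have key2 : ∀ h ∈ H, ∀ F : Subgroup G, F.relIndex Ya ≤ q ^ 2 → h ∈ C[F] → h ∈ C[Ya] := by
    intro h hh F iF hc
    by_contra hn
    have hn' : ¬ zpowers h ≤ C[Ya] := fun e => hn (e (mem_zpowers h))
    have a := ((A.d (zpowers_le_of_mem (HP hh)) (PG.elemAb_of_le eV (zpowers_le_of_mem (hH hh)))
      hn').trans (relIndex_le_of_le_left (le_cent_symm (zpowers_le_of_mem hc))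
        (relIndex_pos _ _).ne')).trans iF
    have b := relIndex_pos C[Ya] (zpowers h)
    have c : C[Ya].relIndex (zpowers h) ≠ 1 := fun e => hn' (relIndex_eq_one.1 e)
    have d : 0 < q ^ 2 := by positivity
    have : 2 ≤ C[Ya].relIndex (zpowers h) := by omega
    nlinarith
  have qq : q ≤ q ^ 2 := by nlinarith
  have all : ∀ F, F ≤ Ya → F.relIndex Ya ≤ q → F ≤ Q → ncl R Y' ≤ C[F] := fun F hF iF hQ =>
    ncl_le fun x hx => le_cent_symm (key F hF iF x hx (hQ.trans (S.v.Q_le_conj (S.v.RL hx))))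
  obtain ⟨y, hy, hyQ⟩ := SetLike.not_le_iff_exists.1
    (fun e => nc (all Ya le_rfl (by simpa using q1.le) e))
  obtain ⟨F, hF, -, f2, x, hx, f3, -, f4⟩ := S.v.hyp YP A.eY hy hyQ
  by_cases hFQ : F ≤ Q
  · refine hyQ (S.small (YQ hy) (A.eY.2 y hy) (lt_of_le_of_lt ((relIndex_le_of_le_left
      (fun h hh => cent_le_cent1 hy (key2 h hh F (f2.trans qq) (all F hF f2 hFQ (hH hh))))
      (relIndex_pos _ _).ne').trans iH) ?_))
    calc q = q ^ 1 := (pow_one q).symm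
      _ < q ^ 3 := Nat.pow_lt_pow_right q1 (by norm_num)
  obtain ⟨y', hy', hyQ'⟩ := SetLike.not_le_iff_exists.1 hFQ
  obtain ⟨F', hF', -, g2, x', hx', g3, -, g4⟩ := S.v.hyp YP A.eY (hF hy') hyQ'
  have c1 := key F hF f2 x hx (S.v.le_conj (hF.trans YP) fun e he => (f3 e he).2)
  have c2 := key F' hF' g2 x' hx' (S.v.le_conj (hF'.trans YP) fun e he => (g3 e he).2)
  obtain ⟨w, hw, w1⟩ := SetLike.not_le_iff_exists.1
    fun e => f4 (S.n1 (YQ hy) hx (mem_cent_iff_le_cent1.2 e))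
  obtain ⟨w', hw', w2⟩ := SetLike.not_le_iff_exists.1
    fun e => g4 (S.n1 (YQ (hF hy')) hx' (mem_cent_iff_le_cent1.2 e))
  have wF : w ∈ C[F] := le_cent_symm c1 hw
  have wH : w ∉ H := fun h => w1 (cent_le_cent1 hy (key2 w h F (f2.trans qq) wF))
  have wV := le_ncl hx hw
  have iH' : H.relIndex (ncl R Y') = q := le_antisymm iH (Nat.le_of_dvd (relIndex_pos _ _)
    (PG.dvd_relIndex_of_not_le (isPGroup_of_elementary eV) fun e => wH (e wV)))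
  have hw2 := le_ncl hx' hw'
  rw [PG.eq_sup_zpowers_of_card_eq_mul S.v.qp hH (PG.card_eq_mul_of_relIndex hH iH') wV wH,
    mem_sup_of_le_norm' ((zpowers_le_of_mem wV).trans (le_norm_of_cent
      ((PG.elemAb_le_cent eV).trans (cent_anti hH))))] at hw2
  obtain ⟨h, hh, k, hk, rfl⟩ := hw2
  have kF : k ∈ C[F] := zpowers_le_of_mem wF hk
  have hc : h ∈ C[F ⊓ F'] := (mul_mem_cancel_right (cent_anti inf_le_left kF)).1
    (cent_anti inf_le_right (le_cent_symm c2 hw'))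
  exact w2 (mul_mem (cent_le_cent1 (hF hy') (key2 h hh _
    (relIndex_inf_le.trans (by rw [pow_two]; exact Nat.mul_le_mul f2 g2)) hc))
    (cent_le_cent1 hy' kF))

end Ed

end Cfsg.Agent.Sig
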